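import Mathlib

/-!
A quadratic extension of finite fields from the cardinalities.
-/

set_option autoImplicit false

namespace CfsgLib.Geometry.FieldEmbed

theorem exists_algebra {K F : Type*} [Field K] [Fintype K] [Field F] [Fintype F] {q : ℕ}
    (hK : Fintype.card K = q ^ 2) (hF : Fintype.card F = q) :
    ∃ _alg : Algebra F K, Module.finrank F K = 2 := by
  obtain ⟨p, hpF⟩ := CharP.exists F
  obtain ⟨nF, hp, hnF⟩ := FiniteField.card F p
  obtain ⟨p', hpK⟩ := CharP.exists K
  obtain ⟨nK, hp', hnK⟩ := FiniteField.card K p'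
  have hpp : p' = p := by
    have hdvd : p' ∣ (p ^ (nF : ℕ)) ^ 2 := by
      rw [← hnF, hF, ← hK, hnK]; exact dvd_pow_self _ nK.ne_zero
    exact (Nat.prime_dvd_prime_iff_eq hp' hp).1 (hp'.dvd_of_dvd_pow (hp'.dvd_of_dvd_pow hdvd))
  subst hpp
  haveI : Fact p'.Prime := ⟨hp⟩
  letI := ZMod.algebra F p'
  letI := ZMod.algebra K p'
  have h1 : Module.finrank (ZMod p') K = 2 * Module.finrank (ZMod p') F := by
    refine Nat.pow_right_injective hp.two_le ?_
    show p' ^ _ = p' ^ _
    have eK := Module.natCard_eq_pow_finrank (K := ZMod p') (V := K)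
    have eF := Module.natCard_eq_pow_finrank (K := ZMod p') (V := F)
    rw [Nat.card_eq_fintype_card, Nat.card_zmod] at eK eF
    rw [pow_mul', ← eK, ← eF, hK, hF]
  obtain ⟨φ⟩ := FiniteField.nonempty_algHom_of_finrank_dvd (F := ZMod p') (K := F) (L := K) (h1 ▸ dvd_mul_left _ 2)
  letI := φ.toRingHom.toAlgebra
  refine ⟨this, ?_⟩
  have e := Module.card_eq_pow_finrank (K := F) (V := K)
  rw [hK, hF] at e
  exact (Nat.pow_right_injective (hF ▸ Fintype.one_lt_card) e).symm

end CfsgLib.Geometry.FieldEmbed
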