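import Mathlib
import Cfsg.Prelude.Def_ClassicalGeometry
import Cfsg.Agent.Lib.Geometry.QuadBasic
import Cfsg.Agent.Lib.QuadClass.Witt
import Cfsg.Agent.Lib.Geometry.SpinorNegOne

/-!
Fixed point free isometries of prime order of even-dimensional orthogonal groups.
-/

set_option autoImplicit false
open scoped Matrix

namespace CfsgLib.Geometry.FixedPointFree

open CfsgLib.QuadClass CfsgLib.Orth.Hyperbolic CfsgLib.Orth.Models CfsgLib.Geometry.QuadBasic

variable {F : Type*} [Field F] [Fintype F] {ι : Type} [Fintype ι] [DecidableEq ι]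

/-- Transport of a linear isometry to the matrix group. -/
theorem transport {V : Type*} [AddCommGroup V] [Module F V] {R : QuadraticForm F V}
    {Q : QuadraticForm F (ι → F)} (e : V ≃ₗ[F] (ι → F)) (he : ∀ v, Q (e v) = R v) (T : V ≃ₗ[F] V)
    (hT : ∀ v, R (T v) = R v) :
    ∃ g : Cfsg.isometryGroup F ⇑Q, ∀ v, g.1.1 *ᵥ (e v) = e (T v) := by
  let f : (ι → F) ≃ₗ[F] (ι → F) := (e.symm.trans T).trans e
  let G : Matrix.GeneralLinearGroup ι F := ⟨LinearMap.toMatrix' f.toLinearMap, LinearMap.toMatrix' f.symm.toLinearMap,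
    by rw [← LinearMap.toMatrix'_comp, f.comp_symm, LinearMap.toMatrix'_id],
    by rw [← LinearMap.toMatrix'_comp, f.symm_comp, LinearMap.toMatrix'_id]⟩
  refine ⟨⟨G, (mem_isometryGroup_iff _ _).2 fun x => ?_⟩, fun v => ?_⟩
  · show Q (LinearMap.toMatrix' f.toLinearMap *ᵥ x) = Q x
    rw [LinearMap.toMatrix'_mulVec]
    show Q (e (T (e.symm x))) = Q x
    rw [he, hT, ← he, e.apply_symm_apply]
  · show LinearMap.toMatrix' f.toLinearMap *ᵥ e v = _
    rw [LinearMap.toMatrix'_mulVec]
    show e (T (e.symm (e v))) = _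
    rw [e.symm_apply_apply]

variable {r : ℕ} [Fact r.Prime]

theorem of_torus {V : Type*} [AddCommGroup V] [Module F V] {R : QuadraticForm F V}
    {Q : QuadraticForm F (ι → F)} (h : Equiv' R Q) (T : V ≃ₗ[F] V)
    (hT : ∀ v, R (T v) = R v) (hr : ∀ v, (⇑T)^[r] v = v) (hfree : ∀ v, T v = v → v = 0) (hne : ∃ v : V, v ≠ 0) :
    ∃ g : Cfsg.isometryGroup F ⇑Q, orderOf g = r ∧ ∀ x, g.1.1 *ᵥ x = x → x = 0 := by
  obtain ⟨e, he⟩ := h
  obtain ⟨g, hg⟩ := transport e he T hT
  have hpow : ∀ (k : ℕ) v, (g ^ k).1.1 *ᵥ (e v) = e ((⇑T)^[k] v) := by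
    intro k
    induction k with
    | zero => intro v; simp
    | succ k ih =>
      intro v
      rw [pow_succ', Subgroup.coe_mul, Units.val_mul, ← Matrix.mulVec_mulVec, ih, hg, Function.iterate_succ_apply']
  have hfree' : ∀ x, g.1.1 *ᵥ x = x → x = 0 := by
    intro x hx
    obtain ⟨v, rfl⟩ := e.surjective x
    rw [hg] at hx
    rw [hfree v (e.injective hx), map_zero]
  refine ⟨g, orderOf_eq_prime ?_ ?_, hfree'⟩
  · refine Subtype.ext (Units.ext (Matrix.ext_iff_mulVec.2 fun x => ?_))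
    obtain ⟨v, rfl⟩ := e.surjective x
    rw [hpow, hr]; simp
  · intro h1
    obtain ⟨v, hv⟩ := hne
    refine hv (e.map_eq_zero_iff.1 (hfree' (e v) ?_))
    rw [h1]; simp

/-- A fixed point free isometry of order `r` counts the singular vectors. -/
theorem dvd_card_zero {Q : QuadraticForm F (ι → F)} (g : Cfsg.isometryGroup F ⇑Q) (hg : g ^ r = 1)
    (hfree : ∀ x, g.1.1 *ᵥ x = x → x = 0) : (Nat.card {x : ι → F // Q x = 0} : ZMod r) = 1 := by
  classical
  let S := {x : ι → F // Q x = 0}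
  letI act : MulAction (Subgroup.zpowers g) S :=
    { smul := fun k x => ⟨k.1.1.1 *ᵥ x.1, ((mem_isometryGroup_iff (⇑Q) k.1.1).1 k.1.2 x.1).trans x.2⟩
      one_smul := fun x => Subtype.ext (Matrix.one_mulVec x.1)
      mul_smul := fun a b x => Subtype.ext (Matrix.mulVec_mulVec x.1 a.1.1.1 b.1.1.1).symm }
  have hp : IsPGroup r (Subgroup.zpowers g) := by
    intro k
    obtain ⟨k, ⟨j, rfl⟩⟩ := k
    exact ⟨1, Subtype.ext (by
      rw [pow_one, SubmonoidClass.coe_pow, OneMemClass.coe_one]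
      show (g ^ j) ^ r = 1
      rw [← zpow_natCast, ← zpow_mul, mul_comm, zpow_mul, zpow_natCast, hg, one_zpow])⟩
  have h1 := hp.card_modEq_card_fixedPoints S
  have h2 : Nat.card (MulAction.fixedPoints (Subgroup.zpowers g) S) = 1 := by
    rw [Nat.card_eq_one_iff_unique]
    refine ⟨⟨fun a b => Subtype.ext (Subtype.ext ?_)⟩,
      ⟨⟨⟨0, QuadraticMap.map_zero Q⟩, fun k => Subtype.ext (Matrix.mulVec_zero _)⟩⟩⟩
    have key : ∀ x : MulAction.fixedPoints (Subgroup.zpowers g) S, x.1.1 = 0 := fun x =>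
      hfree _ (congrArg Subtype.val (x.2 ⟨g, Subgroup.mem_zpowers g⟩))
    rw [key a, key b]
  rw [h2] at h1
  have := (ZMod.natCast_eq_natCast_iff _ _ r).2 h1
  simpa using this

variable [CharP F 2]

/-- Minus type: the torus of order `q ^ d + 1`. -/
theorem exists_minus {m : ℕ} {Q : QuadraticForm F (ι → F)} (hQ : (QuadraticMap.polarBilin Q).Nondegenerate)
    (hcard : Fintype.card ι = 2 * (m + 1)) (hno : ¬ Equiv' Q (plusQ F (m + 1))) (hr2 : r ≠ 2)
    (hr : r ∣ Fintype.card F ^ (m + 1) + 1) :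
    ∃ g : Cfsg.isometryGroup F ⇑Q, orderOf g = r ∧ ∀ x, g.1.1 *ᵥ x = x → x = 0 := by
  classical
  haveI : Fact (Nat.Prime 2) := ⟨Nat.prime_two⟩
  haveI : NeZero (2 * (m + 1)) := ⟨by omega⟩
  let K := FiniteField.Extension F 2 (2 * (m + 1))
  have hKd : Module.finrank F K = 2 * (m + 1) := FiniteField.finrank_extension F 2 (2 * (m + 1))
  haveI : Finite K := Module.finite_of_finite F
  haveI : Fintype K := Fintype.ofFinite K
  set q := Fintype.card F with hq
  have hKc : Fintype.card K = q ^ (2 * (m + 1)) := by rw [Module.card_eq_pow_finrank (K := F), hKd]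
  let σe : K ≃ₐ[F] K := FiniteField.Extension.frob F 2 (2 * (m + 1)) ^ (m + 1)
  have hσ : ∀ x : K, σe x = x ^ (q ^ (m + 1)) := fun x => by
    rw [FiniteField.Extension.frob_iterate_apply, Nat.card_eq_fintype_card]
  let σ : K →ₗ[F] K := σe.toLinearEquiv.toLinearMap
  have hσσ : ∀ x : K, σ (σ x) = x := fun x => by
    show σe (σe x) = x
    rw [hσ, hσ, ← pow_mul, ← pow_add, show (m + 1) + (m + 1) = 2 * (m + 1) by ring, ← hKc, FiniteField.pow_card]
  haveI : CharP K 2 := charP_of_injective_ringHom (algebraMap F K).injective 2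
  let N : K →ₗ[F] K := LinearMap.id + σ
  have hNr : ∀ w, σ w = w → ∃ y, N y = w := by
    have hle : LinearMap.range N ≤ LinearMap.ker N := by
      rintro _ ⟨y, rfl⟩
      show (y + σ y) + σ (y + σ y) = 0
      rw [map_add, hσσ, add_comm (σ y) y, CharTwo.add_self_eq_zero]
    intro w hw
    have hwk : w ∈ LinearMap.ker N := by show w + σ w = 0; rw [hw, CharTwo.add_self_eq_zero]
    have hkc : Nat.card (LinearMap.ker N) ≤ q ^ (m + 1) := by
      let P : Polynomial K := Polynomial.X ^ (q ^ (m + 1)) - Polynomial.X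
      have h1q : 1 < q ^ (m + 1) := Nat.one_lt_pow (by omega) Fintype.one_lt_card
      have hne : P ≠ 0 := FiniteField.X_pow_card_sub_X_ne_zero K h1q
      have hsub : ((LinearMap.ker N : Submodule F K) : Set K).toFinset ⊆ P.roots.toFinset := fun y hy => by
        rw [Set.mem_toFinset] at hy
        rw [Multiset.mem_toFinset, Polynomial.mem_roots hne]
        have hy' : y + σ y = 0 := hy
        simp only [P, Polynomial.IsRoot, Polynomial.eval_sub, Polynomial.eval_pow, Polynomial.eval_X, ← hσ]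
        rw [CharTwo.sub_eq_add, add_comm]; exact hy'
      have := (Finset.card_le_card hsub).trans ((Multiset.toFinset_card_le _).trans
        (P.card_roots'.trans (FiniteField.X_pow_card_sub_X_natDegree_eq K h1q).le))
      rw [Set.toFinset_card, ← Nat.card_eq_fintype_card] at this
      exact this
    rw [Module.natCard_eq_pow_finrank (K := F), Nat.card_eq_fintype_card,
      Nat.pow_le_pow_iff_right Fintype.one_lt_card] at hkc
    have h2 := N.finrank_range_add_finrank_ker
    rw [hKd] at h2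
    have h3 := Submodule.finrank_mono hle
    obtain ⟨y, hy⟩ : w ∈ LinearMap.range N := by rw [Submodule.eq_of_le_of_finrank_le hle (by omega)]; exact hwk
    exact ⟨y, hy⟩
  -- shift so as to be nonzero on the fixed field
  obtain ⟨Λ, hΛ⟩ : ∃ L : K →ₗ[F] F, L 1 ≠ 0 := by
    by_contra h
    simp only [not_exists, not_not] at h
    exact one_ne_zero ((Module.forall_dual_apply_eq_zero_iff F (1 : K)).1 h)
  let Bf : K →ₗ[F] K →ₗ[F] F := LinearMap.mk₂ F (fun x y => Λ (x * σ y))
    (fun x x' y => by simp only [add_mul, map_add])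
    (fun c x y => by simp only [smul_mul_assoc, map_smul])
    (fun x y y' => by simp only [map_add, mul_add])
    (fun c x y => by simp only [map_smul, mul_smul_comm])
  let R : QuadraticForm F K := LinearMap.BilinMap.toQuadraticMap Bf
  have hRv : ∀ x, R x = Λ (x * σ x) := fun x => rfl
  have hR : Nondeg R := by
    intro u hu
    obtain ⟨y0, hy0⟩ := hNr 1 (map_one σe)
    refine ⟨σ (y0 * u⁻¹), ?_⟩
    rw [LinearMap.BilinMap.polar_toQuadraticMap]
    show Λ (u * σ (σ (y0 * u⁻¹))) + Λ (σ (y0 * u⁻¹) * σ u) ≠ 0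
    have h1 : σ (y0 * u⁻¹) * σ u = σ y0 := by
      show σe (y0 * u⁻¹) * σe u = σe y0
      rw [← map_mul, inv_mul_cancel_right₀ hu]
    rw [h1, hσσ, ← map_add, mul_comm y0, ← mul_assoc, mul_inv_cancel₀ hu, one_mul,
      show y0 + σ y0 = 1 from hy0]
    exact hΛ
  -- the generator
  have hdvd : r ∣ Fintype.card Kˣ := by
    rw [Fintype.card_units, hKc, show q ^ (2 * (m + 1)) - 1 = (q ^ (m + 1) + 1) * (q ^ (m + 1) - 1) by
      rw [← Nat.sq_sub_sq, one_pow, ← pow_mul, mul_comm]]
    exact hr.trans (dvd_mul_right _ _)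
  obtain ⟨z, hz⟩ := exists_prime_orderOf_dvd_card r hdvd
  have hzN : (z : K) * σ (z : K) = 1 := by
    show (z : K) * σe (z : K) = 1
    have : z ^ (q ^ (m + 1) + 1) = 1 := orderOf_dvd_iff_pow_eq_one.1 (hz ▸ hr)
    rw [hσ, ← pow_succ', ← Units.val_pow_eq_pow_val, this, Units.val_one]
  let T : K ≃ₗ[F] K :=
    { toFun := fun x => (z : K) * x
      invFun := fun x => ((z⁻¹ : Kˣ) : K) * x
      map_add' := fun x y => mul_add _ _ _
      map_smul' := fun c x => mul_smul_comm _ _ _
      left_inv := fun x => by simp [← mul_assoc]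
      right_inv := fun x => by simp [← mul_assoc] }
  have hT : ∀ x, R (T x) = R x := fun x => by
    rw [hRv, hRv]
    show Λ ((z : K) * x * σe ((z : K) * x)) = _
    rw [map_mul σe, show (z : K) * x * (σe (z : K) * σe x) = ((z : K) * σe (z : K)) * (x * σe x) by ring]
    rw [show (z : K) * σe (z : K) = 1 from hzN, one_mul]; rfl
  have hiter : ∀ (k : ℕ) x, (⇑T)^[k] x = (z : K) ^ k * x := by
    intro k
    induction k with
    | zero => simp
    | succ k ih => intro x; rw [Function.iterate_succ_apply', ih]; show (z : K) * _ = _; rw [pow_succ', mul_assoc]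
  have hrp : ∀ x, (⇑T)^[r] x = x := fun x => by
    rw [hiter, ← Units.val_pow_eq_pow_val, ← hz, pow_orderOf_eq_one, Units.val_one, one_mul]
  have hz1 : (z : K) ≠ 1 := fun h => (Fact.out : r.Prime).ne_one (by
    rw [← hz, orderOf_eq_one_iff]; exact Units.ext h)
  have hfree : ∀ x, T x = x → x = 0 := fun x hx => by
    by_contra h0
    exact hz1 (mul_right_cancel₀ h0 (show (z : K) * x = 1 * x by rw [one_mul]; exact hx))
  have hRno : ¬ Equiv' R (plusQ F (m + 1)) := by
    intro he
    obtain ⟨g, hg, hgf⟩ := of_torus he T hT hrp hfree ⟨1, one_ne_zero⟩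
    have h1 := dvd_card_zero (r := r) g (by rw [← hg, pow_orderOf_eq_one]) hgf
    have h2 := congrArg (fun x : ℤ => (x : ZMod r)) (card_zero_plus (F := F) (m + 1))
    push_cast at h2
    rw [h1, ← hq, pow_mul', sq] at h2
    have hq1 : (q : ZMod r) ^ (m + 1) = -1 := by
      have : ((q ^ (m + 1) + 1 : ℕ) : ZMod r) = 0 := (ZMod.natCast_eq_zero_iff _ _).2 hr
      push_cast at this
      linear_combination this
    rw [hq1] at h2
    have h3 : (2 : ZMod r) * (q - 1) = 0 := by linear_combination h2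
    have h2r : (2 : ZMod r) ≠ 0 := fun h => hr2 ((Nat.prime_dvd_prime_iff_eq Fact.out Nat.prime_two).1
      ((ZMod.natCast_eq_zero_iff 2 r).1 (by exact_mod_cast h)))
    have hq' : (q : ZMod r) = 1 := sub_eq_zero.1 ((mul_eq_zero.1 h3).resolve_left h2r)
    rw [hq', one_pow] at hq1
    exact h2r (by linear_combination hq1)
  have heq : Equiv' R Q := equiv_of_singular_iff m hR (nondeg_of Q hQ) hKd
    (by rw [Module.finrank_fintype_fun_eq_card, hcard]) (iff_of_false hRno hno)
  exact of_torus heq T hT hrp hfree ⟨1, one_ne_zero⟩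

/-- Plus type: the torus of order `q ^ d - 1`. -/
theorem exists_plus {m : ℕ} {Q : QuadraticForm F (ι → F)} (hpl : Equiv' Q (plusQ F (m + 1)))
    (hQ : (QuadraticMap.polarBilin Q).Nondegenerate) (hr : r ∣ Fintype.card F ^ (m + 1) - 1) :
    ∃ g : Cfsg.isometryGroup F ⇑Q, orderOf g = r ∧ ∀ x, g.1.1 *ᵥ x = x → x = 0 := by
  classical
  haveI : Fact (Nat.Prime 2) := ⟨Nat.prime_two⟩
  let L := FiniteField.Extension F 2 (m + 1)
  have hLd : Module.finrank F L = m + 1 := FiniteField.finrank_extension F 2 (m + 1)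
  haveI : Finite L := Module.finite_of_finite F
  haveI : Fintype L := Fintype.ofFinite L
  obtain ⟨z, hz⟩ := exists_prime_orderOf_dvd_card r (show r ∣ Fintype.card Lˣ by
    rw [Fintype.card_units, Module.card_eq_pow_finrank (K := F), hLd]; exact hr)
  obtain ⟨Λ, hΛ⟩ : ∃ Λ : L →ₗ[F] F, Λ 1 ≠ 0 := by
    by_contra h
    simp only [not_exists, not_not] at h
    exact one_ne_zero ((Module.forall_dual_apply_eq_zero_iff F (1 : L)).1 h)
  let Bf : (L × L) →ₗ[F] (L × L) →ₗ[F] F := LinearMap.mk₂ F (fun x y => Λ (x.1 * y.2))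
    (fun x x' y => by simp only [Prod.fst_add, add_mul, map_add])
    (fun c x y => by simp only [Prod.smul_fst, smul_mul_assoc, map_smul])
    (fun x y y' => by simp only [Prod.snd_add, mul_add, map_add])
    (fun c x y => by simp only [Prod.smul_snd, mul_smul_comm, map_smul])
  let R : QuadraticForm F (L × L) := LinearMap.BilinMap.toQuadraticMap Bf
  have hR : Nondeg R := by
    rintro ⟨a, b⟩ hu
    by_cases ha : a = 0
    · have hb : b ≠ 0 := fun hb => hu (by rw [ha, hb]; rfl)
      refine ⟨(b⁻¹, 0), ?_⟩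
      rw [LinearMap.BilinMap.polar_toQuadraticMap]
      show Λ (a * 0) + Λ (b⁻¹ * b) ≠ 0
      rw [mul_zero, map_zero, zero_add, inv_mul_cancel₀ hb]; exact hΛ
    · refine ⟨(0, a⁻¹), ?_⟩
      rw [LinearMap.BilinMap.polar_toQuadraticMap]
      show Λ (a * a⁻¹) + Λ (0 * b) ≠ 0
      rw [zero_mul, map_zero, add_zero, mul_inv_cancel₀ ha]; exact hΛ
  have hd : Module.finrank F (L × L) = 2 * (m + 1) := by rw [Module.finrank_prod, hLd]; omega
  have hRp : Equiv' R (plusQ F (m + 1)) := by
    refine (has_max_singular_iff m hR hd).2 ⟨LinearMap.range (LinearMap.inl F L L), ?_, ?_⟩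
    · rintro _ ⟨x, rfl⟩
      show Λ (x * 0) = 0
      rw [mul_zero, map_zero]
    · rw [LinearMap.finrank_range_of_inj LinearMap.inl_injective, hLd]
  let T : (L × L) ≃ₗ[F] (L × L) :=
    { toFun := fun x => ((z : L) * x.1, ((z⁻¹ : Lˣ) : L) * x.2)
      invFun := fun x => (((z⁻¹ : Lˣ) : L) * x.1, (z : L) * x.2)
      map_add' := fun x y => Prod.ext (mul_add _ _ _) (mul_add _ _ _)
      map_smul' := fun c x => Prod.ext (mul_smul_comm _ _ _) (mul_smul_comm _ _ _)
      left_inv := fun x => by simp [← mul_assoc]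
      right_inv := fun x => by simp [← mul_assoc] }
  have hT : ∀ x, R (T x) = R x := fun x => by
    show Λ ((z : L) * x.1 * (((z⁻¹ : Lˣ) : L) * x.2)) = Λ (x.1 * x.2)
    rw [show (z : L) * x.1 * (((z⁻¹ : Lˣ) : L) * x.2) = ((z : L) * ((z⁻¹ : Lˣ) : L)) * (x.1 * x.2) by ring,
      Units.mul_inv, one_mul]
  have hiter : ∀ (k : ℕ) x, (⇑T)^[k] x = (((z ^ k : Lˣ) : L) * x.1, (((z⁻¹) ^ k : Lˣ) : L) * x.2) := by
    intro k
    induction k with
    | zero => simp
    | succ k ih =>
      intro x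
      rw [Function.iterate_succ_apply', ih, pow_succ', pow_succ', Units.val_mul, Units.val_mul, mul_assoc, mul_assoc]
      rfl
  have hrp : ∀ x, (⇑T)^[r] x = x := fun x => by
    rw [hiter, inv_pow, ← hz, pow_orderOf_eq_one, inv_one, Units.val_one, one_mul, one_mul]
  have hz1 : (z : L) ≠ 1 := fun h => (Fact.out : r.Prime).ne_one (by rw [← hz, orderOf_eq_one_iff]; exact Units.ext h)
  have hfree : ∀ x, T x = x → x = 0 := fun x hx => by
    have h1 : (z : L) * x.1 = x.1 := congrArg Prod.fst hx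
    have h2 : ((z⁻¹ : Lˣ) : L) * x.2 = x.2 := congrArg Prod.snd hx
    refine Prod.ext ?_ ?_
    · by_contra h0; exact hz1 (mul_right_cancel₀ h0 (h1.trans (one_mul _).symm))
    · by_contra h0
      refine hz1 ?_
      have h3 := mul_right_cancel₀ h0 (h2.trans (one_mul _).symm)
      have : (z⁻¹ : Lˣ) = 1 := Units.ext h3
      rw [inv_eq_one.1 this, Units.val_one]
  exact of_torus (hRp.trans hpl.symm) T hT hrp hfree ⟨(1, 0), fun h => one_ne_zero (congrArg Prod.fst h)⟩

end CfsgLib.Geometry.FixedPointFree
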