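import Mathlib
import Cfsg.Prelude.Def_ClassicalGeometry
import Cfsg.Agent.Lib.Geometry.InvolutionModels
import Cfsg.Agent.Lib.Geometry.OmegaTools
import Cfsg.Agent.Lib.Symplectic.InvolutionCards

/-!
Centralisers of involutions in orthogonal groups of plus type in characteristic two.
-/

set_option autoImplicit false
open scoped Matrix

namespace CfsgLib.Geometry.InvolutionOmegaCentralizer

open CfsgLib.Geometry CfsgLib.Geometry.InvolutionModels CfsgLib.Orth.Models CfsgLib.Symplectic.Basic

variable {F : Type*} [Field F] [Fintype F] [CharP F 2] {m : ℕ}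

set_option quotPrecheck false
local notation "O" => Cfsg.isometryGroup F ⇑(plusQ F m)

/-- An isometry of the plus form as a symplectic matrix. -/
def emb (g : O) : Sp m F :=
  ⟨g.1.1, (mem_iff _).2 fun u v => by
    rw [← CfsgLib.Symplectic.InvolutionClasses.polar_plus_eq, ← CfsgLib.Symplectic.InvolutionClasses.polar_plus_eq]
    exact Reflections.iso_polar g u v⟩

omit [Fintype F] [CharP F 2] in
theorem iso (g : O) (x : V m F) : plusQ F m (g.1.1 *ᵥ x) = plusQ F m x :=
  (QuadBasic.mem_isometryGroup_iff (⇑(plusQ F m)) g.1).1 g.2 x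

omit [Fintype F] in
theorem Q_add (x y : V m F) : plusQ F m (x + y) = plusQ F m x + plusQ F m y + B x y := by
  rw [← CfsgLib.Symplectic.InvolutionClasses.polar_plus_eq]
  simp only [QuadraticMap.polar]; ring

omit [Fintype F] in
theorem Q_add_smul (x y : V m F) (c : F) :
    plusQ F m (x + c • y) = plusQ F m x + c * c * plusQ F m y + c * B x y := by
  rw [Q_add, QuadraticMap.map_smul, map_smul, smul_eq_mul, smul_eq_mul]

/-- The image of the Artin-Schreier map. -/
def AS (F : Type*) [Field F] [CharP F 2] : AddSubgroup F where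
  carrier := {c | ∃ z : F, z * z + z = c}
  zero_mem' := ⟨0, by ring⟩
  add_mem' := by
    rintro a b ⟨x, rfl⟩ ⟨y, rfl⟩
    exact ⟨x + y, by linear_combination CharTwo.add_self_eq_zero (x * y)⟩
  neg_mem' := by rintro a ⟨x, rfl⟩; exact ⟨x, (CharTwo.neg_eq _).symm⟩

theorem card_AS : 2 * Nat.card (AS F) = Fintype.card F := by
  let φ : F →+ F :=
    { toFun := fun z => z * z + z
      map_zero' := by ring
      map_add' := fun x y => by linear_combination CharTwo.add_self_eq_zero (x * y) }
  have hr : φ.range = AS F := AddSubgroup.ext fun c => Iff.rfl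
  have hk : (φ.ker : Set F) = {0, 1} := by
    ext z
    show z * z + z = 0 ↔ _
    rw [show z * z + z = z * (z + 1) by ring, mul_eq_zero, CharTwo.add_eq_zero]
    simp
  have h1 := AddSubgroup.card_eq_card_quotient_mul_card_addSubgroup φ.ker
  rw [Nat.card_congr (QuotientAddGroup.quotientKerEquivRange φ).toEquiv, hr] at h1
  have h2 : Nat.card φ.ker = 2 := by
    show Nat.card (φ.ker : Set F) = 2
    rw [Nat.card_coe_set_eq, hk, Set.ncard_pair zero_ne_one]
  rw [h2, Nat.card_eq_fintype_card] at h1
  omega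

variable (m F) in
/-- A maximal totally singular subspace. -/
def U0 : Submodule F (V m F) := LinearMap.ker (LinearMap.funLeft F F (Sum.inr : Fin m → Fin m ⊕ Fin m))

omit [Fintype F] [CharP F 2] in
theorem U0_singular {x : V m F} (hx : x ∈ U0 F m) : plusQ F m x = 0 := by
  rw [plusQ_apply, Cfsg.quadFormPlus]
  refine Finset.sum_eq_zero fun i _ => ?_
  have := congrFun (LinearMap.mem_ker.1 hx) i
  simp only [LinearMap.funLeft_apply, Pi.zero_apply] at this
  rw [this, mul_zero]

omit [Fintype F] [CharP F 2] in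
theorem U0_finrank : Module.finrank F (U0 F m) = m := by
  have h1 := (LinearMap.funLeft F F (Sum.inr : Fin m → Fin m ⊕ Fin m)).finrank_range_add_finrank_ker
  rw [LinearMap.range_eq_top.2 (LinearMap.funLeft_surjective_of_injective F F _ Sum.inr_injective), finrank_top,
    Module.finrank_fintype_fun_eq_card, Module.finrank_fintype_fun_eq_card, Fintype.card_sum, Fintype.card_fin] at h1
  exact Nat.add_left_cancel h1

/-- Totally singular subspaces extend to maximal ones. -/
theorem exists_maximal (W : Submodule F (V m F)) (hW : ∀ x ∈ W, plusQ F m x = 0) :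
    ∃ Z : Submodule F (V m F), W ≤ Z ∧ (∀ x ∈ Z, plusQ F m x = 0) ∧ Module.finrank F Z = m := by
  have hWm := CfsgLib.QuadClass.plus_singular_le m W hW
  have h0 := U0_finrank (F := F) (m := m)
  let b := Module.finBasis F W
  let c := Module.finBasisOfFinrankEq F (U0 F m) h0
  let u : Fin (Module.finrank F W) → V m F := fun i => (c (Fin.castLE hWm i) : V m F)
  have hu : LinearIndependent F u :=
    (c.linearIndependent.map' (U0 F m).subtype (Submodule.ker_subtype _)).comp _ (Fin.castLE_injective _)
  let e : Submodule.span F (Set.range u) ≃ₗ[F] W := (Module.Basis.span hu).equiv b (Equiv.refl _)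
  have hle : Submodule.span F (Set.range u) ≤ U0 F m := Submodule.span_le.2 (by rintro _ ⟨i, rfl⟩; exact (c _).2)
  obtain ⟨g, hg⟩ := OmegaTools.exists_map_sub (nondeg_plus' m) _ W e (fun x => by
    rw [hW _ (e x).2, U0_singular (hle x.2)])
  refine ⟨(U0 F m).map (Matrix.mulVecLin g.1.1), hg ▸ Submodule.map_mono hle, ?_, ?_⟩
  · rintro _ ⟨x, hx, rfl⟩
    exact (iso g x).trans (U0_singular hx)
  · have hinj : Function.Injective (Matrix.mulVecLin g.1.1) := fun x y h => by
      have := congrArg ((g⁻¹).1.1 *ᵥ ·) h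
      simpa [Matrix.mulVec_mulVec, ← Units.val_mul] using this
    rw [← (Submodule.equivMapOfInjective _ hinj _).finrank_eq, h0]

/-- A form with a maximal totally singular subspace after translation. -/
theorem mem_AS_of_translate (a : V m F) (Z : Submodule F (V m F))
    (hZd : Module.finrank F Z = m) (hZ : ∀ x ∈ Z, plusQ F m x = B a x * B a x) : plusQ F m a ∈ AS F := by
  have hiso : ∀ x ∈ Z, ∀ y ∈ Z, B x y = 0 := fun x hx y hy => by
    have h := hZ _ (Z.add_mem hx hy)
    rw [Q_add, hZ x hx, hZ y hy, map_add] at h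
    linear_combination h + CharTwo.add_self_eq_zero (B a x * B a y)
  have hperp : ∀ x, (∀ z ∈ Z, B z x = 0) → x ∈ Z := by
    intro x hx
    have hle : Z ≤ LinearMap.BilinForm.orthogonal (B (F := F) (m := m)) Z := fun y hy => by
      rw [LinearMap.BilinForm.mem_orthogonal_iff]; exact fun z hz => hiso z hz y hy
    have he := Submodule.eq_of_le_of_finrank_eq hle (by
      rw [LinearMap.BilinForm.finrank_orthogonal CfsgLib.Symplectic.IsoTuples.B_nondeg,
        Module.finrank_fintype_fun_eq_card, Fintype.card_sum, Fintype.card_fin, hZd]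
      omega)
    rw [he, LinearMap.BilinForm.mem_orthogonal_iff]; exact hx
  have hswap : ∀ x y : V m F, B x y = B y x := fun x y => by rw [B_swap, CharTwo.neg_eq]
  by_cases hall : ∀ z ∈ Z, B a z = 0
  · have ha : a ∈ Z := hperp a fun z hz => by rw [hswap]; exact hall z hz
    rw [hZ a ha, B_self, mul_zero]; exact zero_mem _
  simp only [not_forall] at hall
  obtain ⟨z0, hz0, hz0'⟩ := hall
  obtain ⟨z, hzZ, haz⟩ : ∃ z ∈ Z, B a z = 1 :=
    ⟨(B a z0)⁻¹ • z0, Z.smul_mem _ hz0, by rw [map_smul, smul_eq_mul, inv_mul_cancel₀ hz0']⟩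
  let Z0 := Z ⊓ LinearMap.ker (B a)
  obtain ⟨Z', hle, hZ', hZ'd⟩ := exists_maximal Z0 (fun x hx => by
    rw [hZ x hx.1, show B a x = 0 from hx.2, mul_zero])
  obtain ⟨e, he, hez⟩ : ∃ e ∈ Z', B e z ≠ 0 := by
    by_contra hc
    simp only [not_exists, not_and, not_not] at hc
    have hiso' : ∀ x ∈ Z', ∀ y ∈ Z', B x y = 0 := fun x hx y hy => by
      have h := hZ' _ (Z'.add_mem hx hy)
      rw [Q_add, hZ' x hx, hZ' y hy] at h
      linear_combination h
    have hle' : Z' ≤ LinearMap.BilinForm.orthogonal (B (F := F) (m := m)) Z' := fun y hy => by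
      rw [LinearMap.BilinForm.mem_orthogonal_iff]; exact fun x hx => hiso' x hx y hy
    have he' := Submodule.eq_of_le_of_finrank_eq hle' (by
      rw [LinearMap.BilinForm.finrank_orthogonal CfsgLib.Symplectic.IsoTuples.B_nondeg,
        Module.finrank_fintype_fun_eq_card, Fintype.card_sum, Fintype.card_fin, hZ'd]
      omega)
    have hz' : z ∈ Z' := by
      rw [he', LinearMap.BilinForm.mem_orthogonal_iff]; exact hc
    have := hZ' z hz'
    rw [hZ z hzZ, haz, one_mul] at this
    exact one_ne_zero this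
  obtain ⟨e1, he1Z, he1z⟩ : ∃ e1 ∈ Z', B e1 z = 1 :=
    ⟨(B e z)⁻¹ • e, Z'.smul_mem _ he, by rw [map_smul, LinearMap.smul_apply, smul_eq_mul, inv_mul_cancel₀ hez]⟩
  -- the component of a
  have hc : a + e1 ∈ Z := by
    refine hperp _ fun y hy => ?_
    have hy0 : y + B a y • z ∈ Z0 := by
      refine ⟨Z.add_mem hy (Z.smul_mem _ hzZ), ?_⟩
      show B a (y + B a y • z) = 0
      rw [map_add, map_smul, haz, smul_eq_mul, mul_one, CharTwo.add_self_eq_zero]
    have h1 : B (y + B a y • z) e1 = 0 := by
      have h := hZ' _ (Z'.add_mem (hle hy0) he1Z)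
      rw [Q_add, hZ' _ (hle hy0), hZ' _ he1Z] at h
      linear_combination h
    rw [map_add, LinearMap.add_apply, map_smul, LinearMap.smul_apply, hswap z, he1z, smul_eq_mul, mul_one] at h1
    rw [map_add, hswap y a]
    linear_combination h1
  have hd : plusQ F m (a + e1) = B a e1 * B a e1 := by
    rw [hZ _ hc, map_add, B_self, zero_add]
  rw [Q_add, hZ' _ he1Z, add_zero] at hd
  refine ⟨B a e1, ?_⟩
  linear_combination (-1 : F) * hd + CharTwo.add_self_eq_zero (B a e1)

omit [Fintype F] in
/-- The translating transvection. -/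
theorem exists_lambda {c : F} (hc : c ∈ AS F) : ∃ l : F, l * l * c + l = 1 := by
  obtain ⟨z, rfl⟩ := hc
  by_cases hz : z = 0
  · exact ⟨1, by rw [hz]; ring⟩
  · refine ⟨z⁻¹, ?_⟩
    have : z⁻¹ * z⁻¹ * (z * z + z) + z⁻¹ = 1 + (z⁻¹ + z⁻¹) := by field_simp; ring
    rw [this, CharTwo.add_self_eq_zero, add_zero]

/-- The symplectic centraliser is the orthogonal one times the admissible translations. -/
theorem card_sp_centralizer (t : O) :
    Nat.card ↥(Subgroup.centralizer ({emb t} : Set (Sp m F))) =
      Nat.card ↥(Subgroup.centralizer ({t} : Set O)) * Nat.card {a : V m F // t.1.1 *ᵥ a = a ∧ plusQ F m a ∈ AS F} := by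
  classical
  choose l hl using fun a : {a : V m F // t.1.1 *ᵥ a = a ∧ plusQ F m a ∈ AS F} => exists_lambda a.2.2
  have hswap : ∀ x y : V m F, B x y = B y x := fun x y => by rw [B_swap, CharTwo.neg_eq]
  let T' : {a : V m F // t.1.1 *ᵥ a = a ∧ plusQ F m a ∈ AS F} → Sp m F := fun a => T a.1 (l a)
  have hT : ∀ a x, (T' a).1 *ᵥ x = x + (l a * B x a.1) • a.1 := fun a x => T_apply _ _ _
  have hTQ : ∀ a x, plusQ F m ((T' a).1 *ᵥ x) = plusQ F m x + B a.1 x * B a.1 x := fun a x => by
    rw [hT, Q_add_smul, hswap a.1 x]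
    linear_combination (B x a.1 * B x a.1) * hl a
  have hTT : ∀ a, T' a * T' a = 1 := fun a => ext_mulVec fun x => by
    rw [mulVec_mul, hT, hT, map_add, LinearMap.add_apply, map_smul, LinearMap.smul_apply, B_self, smul_zero, add_zero,
      add_assoc, InvolutionFrame.vec_add_self (F := F), add_zero, Submonoid.coe_one, Matrix.one_mulVec]
  have hTt : ∀ a, T' a * emb t = emb t * T' a := fun a => ext_mulVec fun x => by
    have h1 : B (t.1.1 *ᵥ x) a.1 = B x a.1 := by
      conv_lhs => arg 2; rw [← a.2.1]
      exact B_map (emb t) x a.1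
    rw [mulVec_mul, mulVec_mul]
    show (T' a).1 *ᵥ (t.1.1 *ᵥ x) = t.1.1 *ᵥ ((T' a).1 *ᵥ x)
    rw [hT, hT, h1, Matrix.mulVec_add, Matrix.mulVec_smul, a.2.1]
  let f : {a : V m F // t.1.1 *ᵥ a = a ∧ plusQ F m a ∈ AS F} × ↥(Subgroup.centralizer ({t} : Set O)) →
      ↥(Subgroup.centralizer ({emb t} : Set (Sp m F))) := fun p =>
    ⟨emb p.2.1 * T' p.1, by
      rw [Subgroup.mem_centralizer_singleton_iff]
      have h2 : emb p.2.1 * emb t = emb t * emb p.2.1 :=
        Subtype.ext (congrArg (fun g : O => g.1.1) (Subgroup.mem_centralizer_singleton_iff.1 p.2.2))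
      rw [mul_assoc, hTt, ← mul_assoc, h2, mul_assoc]⟩
  have hbij : Function.Bijective f := by
    constructor
    · rintro ⟨a, h⟩ ⟨a', h'⟩ e
      have e' : emb h.1 * T' a = emb h'.1 * T' a' := congrArg Subtype.val e
      have key : ∀ x, B a.1 x = B a'.1 x := fun x => by
        have hx := congrArg (fun g : Sp m F => plusQ F m (g.1 *ᵥ x)) e'
        simp only [mulVec_mul] at hx
        rw [show plusQ F m ((emb h.1).1 *ᵥ _) = _ from iso h.1 _, show plusQ F m ((emb h'.1).1 *ᵥ _) = _ from iso h'.1 _,
          hTQ, hTQ, add_right_inj] at hx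
        rcases mul_self_eq_mul_self_iff.1 hx with h | h
        · exact h
        · rwa [CharTwo.neg_eq] at h
      obtain rfl : a = a' := Subtype.ext (sub_eq_zero.1 (eq_zero_of_B_left fun x => by
        rw [map_sub, LinearMap.sub_apply, key, sub_self]))
      have e2 : emb h.1 = emb h'.1 := mul_right_cancel e'
      exact Prod.ext rfl (Subtype.ext (Subtype.ext (Units.ext (congrArg Subtype.val e2))))
    · rintro ⟨g, hg⟩
      rw [Subgroup.mem_centralizer_singleton_iff] at hg
      -- the translation of g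
      let δ : V m F → F := fun x => plusQ F m (g.1 *ᵥ x) + plusQ F m x
      have hδa : ∀ x y, δ (x + y) = δ x + δ y := fun x y => by
        simp only [δ, Matrix.mulVec_add, Q_add, B_map]
        linear_combination CharTwo.add_self_eq_zero (B x y)
      have hδs : ∀ (c : F) x, δ (c • x) = c ^ 2 * δ x := fun c x => by
        simp only [δ, Matrix.mulVec_smul, QuadraticMap.map_smul, smul_eq_mul]; ring
      haveI : Fact (Nat.Prime 2) := ⟨Nat.prime_two⟩
      set s := (frobeniusEquiv F 2).symm with hs
      let φ : V m F →ₗ[F] F :=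
        { toFun := fun x => s (δ x)
          map_add' := fun x y => by rw [hδa, map_add]
          map_smul' := fun c x => by
            rw [hδs, map_mul, RingHom.id_apply, smul_eq_mul]
            congr 1
            rw [hs, RingEquiv.symm_apply_eq, frobeniusEquiv_def] }
      obtain ⟨a, ha⟩ := CfsgLib.Forms.WittAlt.exists_vec (B (F := F) (m := m)) CfsgLib.Symplectic.IsoTuples.B_nondeg φ
      have haq : ∀ x, B a x * B a x = δ x := fun x => by
        rw [hswap a x, ha]
        have := (frobeniusEquiv F 2).apply_symm_apply (δ x)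
        rw [frobeniusEquiv_def, sq] at this
        exact this
      have hgt : ∀ x, g.1 *ᵥ (t.1.1 *ᵥ x) = t.1.1 *ᵥ (g.1 *ᵥ x) := fun x => by
        have := congrArg (fun k : Sp m F => k.1 *ᵥ x) hg
        simp only [mulVec_mul] at this
        exact this
      have hfix : t.1.1 *ᵥ a = a := sub_eq_zero.1 (eq_zero_of_B_left fun x => by
        rw [map_sub, LinearMap.sub_apply, sub_eq_zero]
        conv_lhs => arg 2; rw [← mulVec_cancel_inv (emb t) x]
        rw [show t.1.1 *ᵥ a = (emb t).1 *ᵥ a from rfl, B_map]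
        set y := ((emb t)⁻¹).1 *ᵥ x with hy
        have hxy : x = t.1.1 *ᵥ y := (mulVec_cancel_inv (emb t) x).symm
        have h1 : B a x * B a x = B a y * B a y := by
          rw [haq, haq]
          simp only [δ, hxy, hgt, iso]
        rcases mul_self_eq_mul_self_iff.1 h1 with h | h
        · exact h.symm
        · rw [CharTwo.neg_eq] at h; exact h.symm)
      have hAS : plusQ F m a ∈ AS F := by
        refine mem_AS_of_translate a ((U0 F m).map (Matrix.mulVecLin (g⁻¹).1)) ?_ ?_
        · rw [← (Submodule.equivMapOfInjective _ (fun x y h => by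
            have := congrArg (g.1 *ᵥ ·) h
            simpa only [Matrix.mulVecLin_apply, mulVec_cancel_inv] using this) _).finrank_eq, U0_finrank]
        · rintro _ ⟨y, hy, rfl⟩
          rw [haq]
          simp only [δ, Matrix.mulVecLin_apply, mulVec_cancel_inv, U0_singular hy, zero_add]
      let a' : {a : V m F // t.1.1 *ᵥ a = a ∧ plusQ F m a ∈ AS F} := ⟨a, hfix, hAS⟩
      have hk : ∀ x, plusQ F m ((g * T' a').1 *ᵥ x) = plusQ F m x := fun x => by
        have h1 : plusQ F m (g.1 *ᵥ ((T' a').1 *ᵥ x)) = δ ((T' a').1 *ᵥ x) + plusQ F m ((T' a').1 *ᵥ x) := by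
          simp only [δ]; rw [add_assoc, CharTwo.add_self_eq_zero, add_zero]
        rw [mulVec_mul, h1, ← haq, hTQ]
        have h2 : B a ((T' a').1 *ᵥ x) = B a x := by
          rw [hT, map_add, map_smul]; show B a x + _ • B a a = B a x; rw [B_self, smul_zero, add_zero]
        rw [h2]
        linear_combination CharTwo.add_self_eq_zero (B a x * B a x)
      have hdet : IsUnit (g * T' a').1.det := SymplecticGroup.symplectic_det (g * T' a').2
      let h : O := ⟨((g * T' a').1).nonsingInvUnit hdet, (QuadBasic.mem_isometryGroup_iff _ _).2 hk⟩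
      have hh : emb h = g * T' a' := rfl
      have hc : h ∈ Subgroup.centralizer ({t} : Set O) := by
        rw [Subgroup.mem_centralizer_singleton_iff]
        refine Subtype.ext (Units.ext ?_)
        have : emb h * emb t = emb t * emb h := by
          rw [hh, mul_assoc, hTt, ← mul_assoc, hg, mul_assoc]
        exact congrArg Subtype.val this
      exact ⟨(a', ⟨h, hc⟩), Subtype.ext (by show emb h * T' a' = g; rw [hh, mul_assoc, hTT, mul_one])⟩
  rw [← Nat.card_congr (Equiv.ofBijective f hbij), Nat.card_prod, mul_comm]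

end CfsgLib.Geometry.InvolutionOmegaCentralizer
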