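import Mathlib
import Cfsg.Agent.Lib.Geometry.InvolutionOmegaCentralizer

/-!
Counting the admissible translations, and passing to the commutator subgroup.
-/

set_option autoImplicit false
open scoped Matrix

namespace CfsgLib.Geometry.InvolutionOmegaCount

open CfsgLib.Geometry CfsgLib.Geometry.InvolutionModels CfsgLib.Orth.Models CfsgLib.Symplectic.Basic
open CfsgLib.Geometry.InvolutionOmegaCentralizer

variable {F : Type*} [Field F] [Fintype F] [CharP F 2] {m : ℕ}

theorem exists_not_AS : ∃ c : F, c ∉ AS F := by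
  by_contra h
  simp only [not_exists, not_not] at h
  have h1 := card_AS (F := F)
  rw [show AS F = ⊤ from eq_top_iff.2 fun c _ => h c,
    Nat.card_congr (Equiv.subtypeUnivEquiv (fun c : F => AddSubgroup.mem_top c)), Nat.card_eq_fintype_card] at h1
  have := Fintype.card_pos (α := F)
  omega

/-- Outside the image of index two sums return to it. -/
theorem add_mem_iff {c d : F} (hd : d ∉ AS F) : c + d ∈ AS F ↔ c ∉ AS F := by
  constructor
  · intro h hc; exact hd (by simpa using (AS F).sub_mem h hc)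
  · intro hc
    by_contra hcd
    have h1 : AddSubgroup.index (AS F) = 2 := by
      have h2 := (AS F).card_mul_index
      have h3 := card_AS (F := F)
      rw [Nat.card_eq_fintype_card (α := F)] at h2
      have hpos : 0 < Nat.card (AS F) := Nat.card_pos
      nlinarith
    have := (AddSubgroup.add_mem_iff_of_index_two h1 (a := c) (b := d))
    exact hcd (this.2 (iff_of_false hc hd))

variable (t : Cfsg.isometryGroup F ⇑(plusQ F m))

theorem card_fixed : Nat.card {a : V m F // t.1.1 *ᵥ a = a} = Fintype.card F ^ (2 * m - DicksonGen.rk t) := by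
  rw [← Nat.card_congr (Equiv.subtypeEquivRight (DicksonGen.mem_ker t))]
  show Nat.card (LinearMap.ker (DicksonGen.N t)) = _
  rw [Module.natCard_eq_pow_finrank (K := F), Nat.card_eq_fintype_card]
  congr 1
  have h := (DicksonGen.N t).finrank_range_add_finrank_ker
  rw [Module.finrank_fintype_fun_eq_card, Fintype.card_sum, Fintype.card_fin] at h
  simp only [DicksonGen.rk]
  omega

/-- Non-alternating type: half of the fixed space. -/
theorem count_nonalt (ht : t * t = 1) (hna : ¬ InvolutionTwo.Alt t) :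
    2 * Nat.card {a : V m F // t.1.1 *ᵥ a = a ∧ plusQ F m a ∈ AS F} = Fintype.card F ^ (2 * m - DicksonGen.rk t) := by
  classical
  have hI := InvolutionTwo.inv_of_sq ht
  obtain ⟨x, hx⟩ := not_forall.1 hna
  set w := DicksonGen.N t x with hw
  have hwQ : plusQ F m w ≠ 0 := by rw [hw, hI.val]; exact hx
  have hwfix : t.1.1 *ᵥ w = w := (DicksonGen.mem_ker t w).1 (LinearMap.mem_ker.2 (hI.sq x))
  obtain ⟨c, hc⟩ := exists_not_AS (F := F)
  obtain ⟨μ, hμ⟩ := (CfsgLib.QuadClass.isSquare_of_two_eq_zero (CharTwo.two_eq_zero) (c / plusQ F m w))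
  have hflip : ∀ a, t.1.1 *ᵥ a = a → (plusQ F m (a + μ • w) ∈ AS F ↔ plusQ F m a ∉ AS F) := fun a ha => by
    have hp : B a w = 0 := by
      rw [← CfsgLib.Symplectic.InvolutionClasses.polar_plus_eq, QuadraticMap.polar_comm]
      exact DicksonGen.polar_range t ⟨x, rfl⟩ ((DicksonGen.mem_ker t a).2 ha)
    rw [Q_add_smul, hp, mul_zero, add_zero, ← hμ, div_mul_cancel₀ _ hwQ]
    exact add_mem_iff hc
  have hfix : ∀ a, t.1.1 *ᵥ a = a → t.1.1 *ᵥ (a + μ • w) = a + μ • w := fun a ha => by
    rw [Matrix.mulVec_add, Matrix.mulVec_smul, ha, hwfix]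
  have hback : ∀ a : V m F, a + μ • w + μ • w = a := fun a => by
    rw [add_assoc, InvolutionFrame.vec_add_self (F := F), add_zero]
  have e : {a : V m F // t.1.1 *ᵥ a = a ∧ plusQ F m a ∈ AS F} ≃ {a : V m F // t.1.1 *ᵥ a = a ∧ plusQ F m a ∉ AS F} :=
    { toFun := fun a => ⟨a.1 + μ • w, hfix _ a.2.1, fun h => (hflip _ a.2.1).1 h a.2.2⟩
      invFun := fun a => ⟨a.1 + μ • w, hfix _ a.2.1, (hflip _ a.2.1).2 a.2.2⟩
      left_inv := fun a => Subtype.ext (hback _)
      right_inv := fun a => Subtype.ext (hback _) }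
  rw [← card_fixed t, two_mul]
  conv_lhs => arg 2; rw [Nat.card_congr e]
  rw [← Nat.card_sum]
  refine Nat.card_congr
    { toFun := fun s => Sum.elim (fun a => ⟨a.1, a.2.1⟩) (fun a => ⟨a.1, a.2.1⟩) s
      invFun := fun a => if h : plusQ F m a.1 ∈ AS F then Sum.inl ⟨a.1, a.2, h⟩ else Sum.inr ⟨a.1, a.2, h⟩
      left_inv := fun s => by rcases s with a | a <;> simp [a.2.2]
      right_inv := fun a => by
        by_cases h : plusQ F m a.1 ∈ AS F <;> simp [h] }

/-- Alternating type. -/
theorem count_alt (ht : t * t = 1) (hA : InvolutionTwo.Alt t) :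
    2 * Nat.card {a : V m F // t.1.1 *ᵥ a = a ∧ plusQ F m a ∈ AS F} =
      Fintype.card F ^ (2 * m - DicksonGen.rk t) + Fintype.card F ^ m := by
  classical
  have hI := InvolutionTwo.inv_of_sq ht
  obtain ⟨Z, hle, hZ, hZd⟩ := exists_maximal (LinearMap.range (DicksonGen.N t)) (by
    rintro _ ⟨x, rfl⟩; rw [hI.val]; exact hA x)
  have hiso : ∀ x ∈ Z, ∀ y ∈ Z, B x y = 0 := fun x hx y hy => by
    have h := hZ _ (Z.add_mem hx hy)
    rw [Q_add, hZ x hx, hZ y hy] at h
    linear_combination h
  have hswap : ∀ x y : V m F, B x y = B y x := fun x y => by rw [B_swap, CharTwo.neg_eq]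
  have hperp : ∀ x, (∀ z ∈ Z, B z x = 0) → x ∈ Z := by
    intro x hx
    have hle' : Z ≤ LinearMap.BilinForm.orthogonal (B (F := F) (m := m)) Z := fun y hy => by
      rw [LinearMap.BilinForm.mem_orthogonal_iff]; exact fun z hz => hiso z hz y hy
    rw [Submodule.eq_of_le_of_finrank_eq hle' (by
      rw [LinearMap.BilinForm.finrank_orthogonal CfsgLib.Symplectic.IsoTuples.B_nondeg,
        Module.finrank_fintype_fun_eq_card, Fintype.card_sum, Fintype.card_fin, hZd]
      omega), LinearMap.BilinForm.mem_orthogonal_iff]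
    exact hx
  have hZfix : ∀ z ∈ Z, t.1.1 *ᵥ z = z := fun z hz => (DicksonGen.mem_ker t z).1 (LinearMap.mem_ker.2 (by
    refine eq_zero_of_B_left fun x => ?_
    rw [← CfsgLib.Symplectic.InvolutionClasses.polar_plus_eq, hI.sym, CfsgLib.Symplectic.InvolutionClasses.polar_plus_eq]
    exact hiso z hz _ (hle ⟨x, rfl⟩)))
  obtain ⟨c, hc⟩ := exists_not_AS (F := F)
  have hsel : ∀ f : Z → F, ∃ z : Z, (∃ u : Z, f u ≠ 0) → (∀ (r : F) u, f (r • u) = r * f u) → f z = c := by
    intro f
    by_cases h : ∃ u : Z, f u ≠ 0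
    · obtain ⟨u, hu⟩ := h
      exact ⟨(c / f u) • u, fun _ hl => by rw [hl, div_mul_cancel₀ _ hu]⟩
    · exact ⟨0, fun h' => absurd h' h⟩
  choose sel hsel using hsel
  let fn : V m F → Z → F := fun y u => B y u.1
  let mv : V m F → V m F := fun y => y + (sel (fn y)).1
  have hfn : ∀ y, fn (mv y) = fn y := fun y => funext fun u => by
    show B (y + _) u.1 = B y u.1
    rw [map_add, LinearMap.add_apply, hiso _ (sel _).2 _ u.2, add_zero]
  have hmv : ∀ y, mv (mv y) = y := fun y => by
    show mv y + (sel (fn (mv y))).1 = y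
    rw [hfn]
    show y + _ + _ = y
    rw [add_assoc, InvolutionFrame.vec_add_self (F := F), add_zero]
  have hflip : ∀ y, y ∉ Z → (plusQ F m (mv y) ∈ AS F ↔ plusQ F m y ∉ AS F) := fun y hy => by
    show plusQ F m (y + _) ∈ _ ↔ _
    have hex : ∃ u : Z, fn y u ≠ 0 := by
      by_contra hn
      simp only [not_exists, not_not] at hn
      exact hy (hperp y fun z hz => by rw [hswap]; exact hn ⟨z, hz⟩)
    rw [Q_add, hZ _ (sel _).2, add_zero, show B y (sel (fn y)).1 = c from
      hsel _ hex (fun r u => by show B y (r • u.1) = _; rw [map_smul, smul_eq_mul])]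
    exact add_mem_iff hc
  have hmvfix : ∀ y, t.1.1 *ᵥ y = y → t.1.1 *ᵥ mv y = mv y := fun y hy => by
    show t.1.1 *ᵥ (y + _) = _
    rw [Matrix.mulVec_add, hy, hZfix _ (sel _).2]
  have hmvZ : ∀ y, y ∉ Z → mv y ∉ Z := fun y hy h => hy (by
    have := Z.sub_mem h (sel (fn y)).2
    simpa [mv] using this)
  let A := {a : V m F // t.1.1 *ᵥ a = a ∧ plusQ F m a ∈ AS F}
  let e : A ⊕ A ≃ {a : V m F // t.1.1 *ᵥ a = a} ⊕ Z :=
    { toFun := Sum.elim (fun a => Sum.inl ⟨a.1, a.2.1⟩)
        (fun a => if h : a.1 ∈ Z then Sum.inr ⟨a.1, h⟩ else Sum.inl ⟨mv a.1, hmvfix _ a.2.1⟩)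
      invFun := Sum.elim
        (fun y => if h : plusQ F m y.1 ∈ AS F then Sum.inl ⟨y.1, y.2, h⟩ else
          Sum.inr ⟨mv y.1, hmvfix _ y.2, (hflip _ (fun hz => h (by rw [hZ _ hz]; exact zero_mem _))).2 h⟩)
        (fun z => Sum.inr ⟨z.1, hZfix _ z.2, by rw [hZ _ z.2]; exact zero_mem _⟩)
      left_inv := fun s => by
        rcases s with a | a
        · simp [a.2.2]
        · by_cases h : a.1 ∈ Z
          · simp [h]
          · simp [h, hmv, show plusQ F m (mv a.1) ∉ AS F from fun hh => (hflip _ h).1 hh a.2.2]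
      right_inv := fun s => by
        rcases s with y | z
        · by_cases h : plusQ F m y.1 ∈ AS F
          · simp [h]
          · have hyZ : y.1 ∉ Z := fun hz => h (by rw [hZ _ hz]; exact zero_mem _)
            simp [h, hmvZ _ hyZ, hmv]
        · simp [z.2] }
  have := Nat.card_congr e
  rw [Nat.card_sum, Nat.card_sum, card_fixed, Module.natCard_eq_pow_finrank (K := F) (V := Z), hZd,
    Nat.card_eq_fintype_card (α := F)] at this
  rw [two_mul]; exact this

/-- Passing to the commutator subgroup. -/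
theorem card_omega_centralizer (h : Fintype.card F ≠ 2 ∨ m ≠ 2) (hm : 1 ≤ m) (ht : t * t = 1) :
    ((∃ v, plusQ F m v ≠ 0 ∧ t.1.1 *ᵥ v = v) →
      2 * Nat.card {g : ↥(Cfsg.Omega F ⇑(plusQ F m)) // g.1 * t = t * g.1}
        = Nat.card ↥(Subgroup.centralizer ({t} : Set (Cfsg.isometryGroup F ⇑(plusQ F m))))) ∧
    (InvolutionTwo.Alt t → DicksonGen.rk t = m →
      Nat.card {g : ↥(Cfsg.Omega F ⇑(plusQ F m)) // g.1 * t = t * g.1}
        = Nat.card ↥(Subgroup.centralizer ({t} : Set (Cfsg.isometryGroup F ⇑(plusQ F m))))) := by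
  classical
  have hQ := nondeg_plus' (F := F) m
  haveI : Nonempty (Fin m ⊕ Fin m) := ⟨Sum.inl ⟨0, hm⟩⟩
  have hex : (∃ c : F, c ≠ 0 ∧ c ≠ 1) ∨ Fintype.card (Fin m ⊕ Fin m) ≠ 4 := by
    rcases h with h | h
    · left
      by_contra hc
      simp only [not_exists, not_and, not_not] at hc
      apply h
      have : (Finset.univ : Finset F) = {0, 1} := by
        ext x; simp only [Finset.mem_univ, Finset.mem_insert, Finset.mem_singleton, true_iff]
        by_cases hx : x = 0
        · exact Or.inl hx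
        · exact Or.inr (hc x hx)
      rw [← Finset.card_univ, this, Finset.card_pair zero_ne_one]
    · right; simp; omega
  obtain ⟨D, hD, hker, -⟩ := omega_parity hQ (DicksonGen.closure_eq_top hQ hex)
  set C := Subgroup.centralizer ({t} : Set (Cfsg.isometryGroup F ⇑(plusQ F m)))
  have e : Nat.card {g : ↥(Cfsg.Omega F ⇑(plusQ F m)) // g.1 * t = t * g.1} = Nat.card ↥((D.comp C.subtype).ker) :=
    Nat.card_congr
      { toFun := fun g => ⟨⟨g.1.1, Subgroup.mem_centralizer_singleton_iff.2 g.2⟩, (hker g.1.1).1 g.1.2⟩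
        invFun := fun g => ⟨⟨g.1.1, (hker g.1.1).2 g.2⟩, Subgroup.mem_centralizer_singleton_iff.1 g.1.2⟩
        left_inv := fun g => rfl
        right_inv := fun g => rfl }
  rw [e]
  constructor
  · rintro ⟨v, hv, hfix⟩
    have hcom := Spinor.R_conj t hv hv hfix
    rw [mul_inv_eq_iff_eq_mul] at hcom
    let r : C := ⟨Reflections.R _ v hv, Subgroup.mem_centralizer_singleton_iff.2 hcom.symm⟩
    have hidx : (D.comp C.subtype).ker.index = 2 := by
      rw [Subgroup.index_ker]
      have : (D.comp C.subtype).range = ⊤ := by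
        rw [eq_top_iff]
        intro u _
        rcases Int.units_eq_one_or u with rfl | rfl
        · exact ⟨1, map_one _⟩
        · exact ⟨r, hD v hv⟩
      rw [this, Nat.card_congr (Subgroup.topEquiv (G := ℤˣ)).toEquiv, Nat.card_eq_fintype_card, Fintype.card_units_int]
    rw [← (D.comp C.subtype).ker.card_mul_index, hidx, mul_comm]
  · intro hA hr
    have : (D.comp C.subtype).ker = ⊤ := eq_top_iff.2 fun g _ =>
      InvolutionCount.split_of_singular hQ hex D hD ht hA (by rw [hr, Fintype.card_sum, Fintype.card_fin]; omega)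
        (Subgroup.mem_centralizer_singleton_iff.1 g.2)
    rw [this, Nat.card_congr (Subgroup.topEquiv (G := C)).toEquiv]

end CfsgLib.Geometry.InvolutionOmegaCount
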