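import Mathlib
import Cfsg.Agent.Lib.Geometry.InvolutionOmegaCount

/-!
The centraliser orders in the commutator subgroup, plus type, characteristic two.
-/

set_option autoImplicit false
open scoped Matrix

namespace CfsgLib.Geometry.InvolutionOmegaFormula

open CfsgLib.Geometry CfsgLib.Geometry.InvolutionModels CfsgLib.Orth.Models CfsgLib.Symplectic.Basic
open CfsgLib.Geometry.InvolutionOmegaCentralizer CfsgLib.Geometry.InvolutionOmegaCount

variable {F : Type*} [Field F] [Fintype F] [CharP F 2] {m : ℕ}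

theorem emb_sq {t : Cfsg.isometryGroup F ⇑(plusQ F m)} (ht : t * t = 1) : emb t * emb t = 1 :=
  Subtype.ext (congrArg (fun g : Cfsg.isometryGroup F ⇑(plusQ F m) => g.1.1) ht)

theorem emb_val (t : Cfsg.isometryGroup F ⇑(plusQ F m)) : (emb t).1 = t.1.1 := rfl

theorem alt_iff (t : Cfsg.isometryGroup F ⇑(plusQ F m)) :
    InvolutionTwo.Alt t ↔ ∀ x, B x (CfsgLib.Symplectic.InvolutionClasses.N (emb t) x) = 0 :=
  forall_congr' fun x => by
    rw [CfsgLib.Symplectic.InvolutionClasses.polar_plus_eq, CfsgLib.Symplectic.InvolutionClasses.N_apply,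
      DicksonGen.N_apply]
    rfl

theorem alt_iff_val {t : Cfsg.isometryGroup F ⇑(plusQ F m)} (ht : t * t = 1) :
    InvolutionTwo.Alt t ↔ ∀ v, plusQ F m ((t.1.1 - 1) *ᵥ v) = 0 :=
  forall_congr' fun v => by
    rw [← (InvolutionTwo.inv_of_sq ht).val, DicksonGen.N_apply, Matrix.sub_mulVec, Matrix.one_mulVec]

theorem nonalt_eq {t : Cfsg.isometryGroup F ⇑(plusQ F m)} (ht : t * t = 1) (hna : ¬ InvolutionTwo.Alt t)
    (h : Fintype.card F ≠ 2 ∨ m ≠ 2) (hm : 1 ≤ m) :
    Nat.card {g : ↥(Cfsg.Omega F ⇑(plusQ F m)) // g.1 * t = t * g.1} * Fintype.card F ^ (2 * m - DicksonGen.rk t)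
      = Nat.card ↥(Subgroup.centralizer ({emb t} : Set (Sp m F))) := by
  have h1 := card_sp_centralizer t
  have h2 := count_nonalt t ht hna
  have h3 := (card_omega_centralizer t h hm ht).1 (InvolutionTwo.exists_fixed (nondeg_plus' m) ht fun hh => hna hh.1)
  rw [h1, ← h3, ← h2]
  ring

theorem odd_formula {t : Cfsg.isometryGroup F ⇑(plusQ F m)} (ht : t * t = 1) {s : ℕ} (hs : (t.1.1 - 1).rank = s)
    (hodd : Odd s) (h : Fintype.card F ≠ 2 ∨ m ≠ 2) :
    Nat.card {g : ↥(Cfsg.Omega F ⇑(plusQ F m)) // g.1 * t = t * g.1} =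
      Fintype.card F ^ (2 * m * (s - 1) - (3 * s ^ 2 - 3 * s) / 2) *
      (Fintype.card F ^ (((s - 1) / 2) ^ 2) * ∏ i ∈ Finset.range ((s - 1) / 2), (Fintype.card F ^ (2 * (i + 1)) - 1)) *
      (Fintype.card F ^ ((m - s) ^ 2) * ∏ i ∈ Finset.range (m - s), (Fintype.card F ^ (2 * (i + 1)) - 1)) := by
  have hs' : ((emb t).1 - 1).rank = s := by rw [emb_val]; exact hs
  have hsm : s ≤ m := hs'.symm.le.trans (CfsgLib.Symplectic.InvolutionCards.rank_le (emb_sq ht))
  obtain ⟨k, hk⟩ := hodd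
  have hna : ¬ InvolutionTwo.Alt t := fun hA => by
    have := InvolutionTwo.even_of_alt (nondeg_plus' m) ht hA
    rw [RankParity.rk_eq_rank, hs, hk] at this
    exact Nat.not_even_iff_odd.2 ⟨k, rfl⟩ this
  have h1 := nonalt_eq ht hna h (by omega)
  rw [RankParity.rk_eq_rank, hs, CfsgLib.Symplectic.InvolutionCentralizer.card_odd (emb_sq ht) (s := s) hs' ⟨k, hk⟩,
    CfsgLib.Symplectic.InvolutionCards.exp_eq hsm] at h1
  refine Nat.eq_of_mul_eq_mul_right (pow_pos (Fintype.card_pos (α := F)) (2 * m - s)) ?_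
  rw [h1]
  have he : 2 * m * s - (3 * s ^ 2 - s) / 2 = (2 * m * (s - 1) - (3 * s ^ 2 - 3 * s) / 2) + (2 * m - s) := by
    have e0 : 2 * m * (s - 1) = 2 * (m * s) - 2 * m := by rw [Nat.mul_sub, mul_one, mul_assoc]
    have h2 : s * s ≤ m * s := Nat.mul_le_mul_right s hsm
    have h3 : s * s = 2 * (2 * (k * k) + 2 * k) + 1 := by rw [hk]; ring
    have h4 : m ≤ m * s := Nat.le_mul_of_pos_right m (by omega)
    rcases Nat.eq_zero_or_pos k with hk0 | hk0
    · subst hk0; subst hk; simp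
    have h5 : 3 * m ≤ m * s := by rw [mul_comm 3 m]; exact Nat.mul_le_mul_left m (by omega)
    rw [sq, e0, mul_assoc 2 m s]
    have h6 : s * s + m ≤ m * s + s := by
      obtain ⟨d, hd⟩ := Nat.exists_eq_add_of_le hsm
      have h7 : d ≤ d * s := Nat.le_mul_of_pos_right d (by omega)
      rw [hd, add_mul]; omega
    have h11 : s ≤ s * s := Nat.le_mul_self s
    omega
  rw [he, pow_add]; ring

theorem even_formula {t : Cfsg.isometryGroup F ⇑(plusQ F m)} (ht : t * t = 1) {s : ℕ} (hs : (t.1.1 - 1).rank = s)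
    (heven : Even s) (hna : ¬ InvolutionTwo.Alt t) (h : Fintype.card F ≠ 2 ∨ m ≠ 2) :
    Nat.card {g : ↥(Cfsg.Omega F ⇑(plusQ F m)) // g.1 * t = t * g.1} =
      Fintype.card F ^ (2 * m * (s - 1) - (3 * s ^ 2 - 5 * s) / 2 - 1) *
      (Fintype.card F ^ (((s - 2) / 2) ^ 2) * ∏ i ∈ Finset.range ((s - 2) / 2), (Fintype.card F ^ (2 * (i + 1)) - 1)) *
      (Fintype.card F ^ ((m - s) ^ 2) * ∏ i ∈ Finset.range (m - s), (Fintype.card F ^ (2 * (i + 1)) - 1)) := by
  have hs' : ((emb t).1 - 1).rank = s := by rw [emb_val]; exact hs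
  have hsm : s ≤ m := hs'.symm.le.trans (CfsgLib.Symplectic.InvolutionCards.rank_le (emb_sq ht))
  have hs0 : s ≠ 0 := by
    intro h0
    refine hna fun x => ?_
    rw [h0, ← RankParity.rk_eq_rank] at hs
    have hb : LinearMap.range (DicksonGen.N t) = ⊥ := Submodule.finrank_eq_zero.1 hs
    rw [LinearMap.range_eq_bot.1 hb]; simp
  have h1 := nonalt_eq ht hna h (by omega)
  have hex : ∃ x, B x (CfsgLib.Symplectic.InvolutionClasses.N (emb t) x) ≠ 0 := not_forall.1 (mt (alt_iff t).2 hna)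
  rw [RankParity.rk_eq_rank, hs, CfsgLib.Symplectic.InvolutionCentralizer.card_even (emb_sq ht) (s := s) hs' heven hs0 hex,
    CfsgLib.Symplectic.InvolutionCards.exp_eq hsm] at h1
  refine Nat.eq_of_mul_eq_mul_right (pow_pos (Fintype.card_pos (α := F)) (2 * m - s)) ?_
  rw [h1]
  obtain ⟨k, hk⟩ := heven
  have he : (s - 1) + (2 * m * s - (3 * s ^ 2 - s) / 2) = (2 * m * (s - 1) - (3 * s ^ 2 - 5 * s) / 2 - 1) + (2 * m - s) := by
    have e0 : 2 * m * (s - 1) = 2 * (m * s) - 2 * m := by rw [Nat.mul_sub, mul_one, mul_assoc]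
    have h2 : s * s ≤ m * s := Nat.mul_le_mul_right s hsm
    have h3 : s * s = 2 * (2 * (k * k)) := by rw [hk]; ring
    have h5 : 2 * m ≤ m * s := by rw [mul_comm 2 m]; exact Nat.mul_le_mul_left m (by omega)
    have h10 : 2 * s ≤ s * s := Nat.mul_le_mul_right s (by omega)
    rw [sq, e0, mul_assoc 2 m s]
    have h6 : s * s + m ≤ m * s + s := by
      obtain ⟨d, hd⟩ := Nat.exists_eq_add_of_le hsm
      have h7 : d ≤ d * s := Nat.le_mul_of_pos_right d (by omega)
      rw [hd, add_mul]; omega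
    have h11 : s ≤ s * s := Nat.le_mul_self s
    omega
  generalize hA : 2 * m * s - (3 * s ^ 2 - s) / 2 = A at he ⊢
  generalize hB : (2 * m * (s - 1) - (3 * s ^ 2 - 5 * s) / 2 - 1) = Bx at he ⊢
  have := congrArg (Fintype.card F ^ ·) he
  simp only [pow_add] at this
  linear_combination ((Fintype.card F ^ (((s - 2) / 2) ^ 2) * ∏ i ∈ Finset.range ((s - 2) / 2), (Fintype.card F ^ (2 * (i + 1)) - 1)) *
      (Fintype.card F ^ ((m - s) ^ 2) * ∏ i ∈ Finset.range (m - s), (Fintype.card F ^ (2 * (i + 1)) - 1))) * this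

theorem alt_formula {t : Cfsg.isometryGroup F ⇑(plusQ F m)} (ht : t * t = 1) {s : ℕ} (hs : (t.1.1 - 1).rank = s)
    (hs0 : s ≠ 0) (hA : InvolutionTwo.Alt t) (h : Fintype.card F ≠ 2 ∨ m ≠ 2) :
    Nat.card {g : ↥(Cfsg.Omega F ⇑(plusQ F m)) // g.1 * t = t * g.1} =
      Fintype.card F ^ (2 * m * s - (3 * s ^ 2 + s) / 2) *
      (Fintype.card F ^ ((s / 2) ^ 2) * ∏ i ∈ Finset.range (s / 2), (Fintype.card F ^ (2 * (i + 1)) - 1)) *
      (if s = m then 1 else Fintype.card F ^ ((m - s) * (m - s - 1)) * (Fintype.card F ^ (m - s) - 1) *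
        ∏ i ∈ Finset.range (m - s - 1), (Fintype.card F ^ (2 * (i + 1)) - 1)) := by
  have hs' : ((emb t).1 - 1).rank = s := by rw [emb_val]; exact hs
  have hsm : s ≤ m := hs'.symm.le.trans (CfsgLib.Symplectic.InvolutionCards.rank_le (emb_sq ht))
  obtain ⟨k, hk⟩ : Even s := by
    have := InvolutionTwo.even_of_alt (nondeg_plus' m) ht hA
    rwa [RankParity.rk_eq_rank, hs] at this
  have h1 := card_sp_centralizer t
  have h2 := count_alt t ht hA
  rw [RankParity.rk_eq_rank, hs] at h2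
  rw [CfsgLib.Symplectic.InvolutionCentralizer.card_alt (emb_sq ht) (s := s) hs' ((alt_iff t).1 hA),
    CfsgLib.Symplectic.InvolutionCards.exp_eq hsm] at h1
  have he : 2 * m * s - (3 * s ^ 2 - s) / 2 = (2 * m * s - (3 * s ^ 2 + s) / 2) + s := by
    have h2' : s * s ≤ m * s := Nat.mul_le_mul_right s hsm
    have h10 : 2 * s ≤ s * s := Nat.mul_le_mul_right s (by omega)
    have h3 : s * s = 2 * (2 * (k * k)) := by rw [hk]; ring
    rw [sq, mul_assoc 2 m s]
    omega
  rw [he, pow_add] at h1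
  split_ifs with hsm'
  · subst hsm'
    have h3 := (card_omega_centralizer t h (by omega) ht).2 hA (by rw [RankParity.rk_eq_rank, hs])
    rw [show 2 * s - s = s by omega] at h2
    have hA' : Nat.card {a : V s F // t.1.1 *ᵥ a = a ∧ plusQ F s a ∈ AS F} = Fintype.card F ^ s := by omega
    rw [hA', Nat.sub_self, zero_pow two_ne_zero, pow_zero, Finset.prod_range_zero] at h1
    refine Nat.eq_of_mul_eq_mul_right (pow_pos (Fintype.card_pos (α := F)) s) ?_
    rw [h3, ← h1]; ring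
  · have h3 := (card_omega_centralizer t h (by omega) ht).1 (InvolutionTwo.exists_fixed (nondeg_plus' m) ht fun hh => by
      have := hh.2.1
      rw [RankParity.rk_eq_rank, hs, Fintype.card_sum, Fintype.card_fin] at this
      omega)
    obtain ⟨r, hr⟩ : ∃ r, m = s + (r + 1) := ⟨m - s - 1, by omega⟩
    subst hr
    rw [Nat.add_sub_cancel_left, show r + 1 - 1 = r by omega] at *
    rw [show 2 * (s + (r + 1)) - s = s + (r + 1) + (r + 1) by omega] at h2
    have hfac : Fintype.card F ^ (2 * (r + 1)) - 1 = (Fintype.card F ^ (r + 1) + 1) * (Fintype.card F ^ (r + 1) - 1) := by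
      rw [← Nat.sq_sub_sq, one_pow, ← pow_mul, mul_comm]
    rw [Finset.prod_range_succ, hfac] at h1
    refine Nat.eq_of_mul_eq_mul_right (show 0 < Fintype.card F ^ (s + (r + 1)) * (Fintype.card F ^ (r + 1) + 1) from
      Nat.mul_pos (pow_pos (Fintype.card_pos (α := F)) _) (Nat.succ_pos _)) ?_
    rw [show (r + 1) ^ 2 = (r + 1) * r + (r + 1) by ring, pow_add] at h1
    conv_lhs => rw [show Fintype.card F ^ (s + (r + 1)) * (Fintype.card F ^ (r + 1) + 1)
      = 2 * Nat.card {a : V (s + (r + 1)) F // t.1.1 *ᵥ a = a ∧ plusQ F (s + (r + 1)) a ∈ AS F} by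
        rw [h2, pow_add _ (s + (r + 1)) (r + 1)]; ring]
    rw [← h3] at h1
    rw [mul_left_comm, ← mul_assoc, ← h1, pow_add (Fintype.card F) s (r + 1)]
    ring

end CfsgLib.Geometry.InvolutionOmegaFormula
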