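import Mathlib
import Cfsg.Prelude.Def_GeometricClasses
import Cfsg.Agent.Lib.Orth.Models
import Cfsg.Agent.Lib.Geometry.InvolutionModels
import Cfsg.Agent.Lib.Geometry.FixedPointFree

/-!
Nonsingular points, and isometries of prime order fixing one.
-/

set_option autoImplicit false
open scoped Matrix

namespace CfsgLib.Geometry.NonsingularPoints

open CfsgLib.Geometry CfsgLib.Geometry.QuadBasic CfsgLib.Orth.Models

variable {F : Type*} [Field F] [Fintype F] {ι : Type} [Fintype ι] [DecidableEq ι]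

theorem card_points (Q : QuadraticForm F (ι → F)) :
    (Nat.card {W : Submodule F (ι → F) // Module.finrank F ↥W = 1 ∧ ∃ v ∈ W, Q v ≠ 0} : ℤ) * (Fintype.card F - 1)
      = (Fintype.card F : ℤ) ^ Fintype.card ι - Nat.card {v : ι → F // Q v = 0} := by
  classical
  let P := {W : Submodule F (ι → F) // Module.finrank F ↥W = 1 ∧ ∃ v ∈ W, Q v ≠ 0}
  choose rep hrep hrepQ using fun W : P => W.2.2
  have hne : ∀ W, rep W ≠ 0 := fun W h => hrepQ W (by rw [h, QuadraticMap.map_zero])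
  have hspan : ∀ W : P, Submodule.span F {rep W} = W.1 := fun W =>
    Submodule.eq_of_le_of_finrank_eq ((Submodule.span_singleton_le_iff_mem _ _).2 (hrep W))
      (by rw [finrank_span_singleton (hne W), W.2.1])
  let f : P × Fˣ → {v : ι → F // Q v ≠ 0} := fun p => ⟨(p.2 : F) • rep p.1, by
    rw [QuadraticMap.map_smul]; exact mul_ne_zero (mul_ne_zero p.2.ne_zero p.2.ne_zero) (hrepQ p.1)⟩
  have hf : Function.Bijective f := by
    constructor
    · rintro ⟨W, c⟩ ⟨W', c'⟩ h
      have h' : (c : F) • rep W = (c' : F) • rep W' := congrArg Subtype.val h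
      obtain rfl : W = W' := Subtype.ext (by
        rw [← hspan W, ← hspan W', ← Submodule.span_singleton_smul_eq c.isUnit, h',
          Submodule.span_singleton_smul_eq c'.isUnit])
      exact Prod.ext rfl (Units.ext (smul_left_injective F (hne W) h'))
    · rintro ⟨v, hv⟩
      have hv0 : v ≠ 0 := fun h => hv (by rw [h, QuadraticMap.map_zero])
      let W : P := ⟨Submodule.span F {v}, finrank_span_singleton hv0, v, Submodule.mem_span_singleton_self v, hv⟩
      obtain ⟨c, hc⟩ := Submodule.mem_span_singleton.1 ((hspan W).ge (Submodule.mem_span_singleton_self v))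
      have hc0 : c ≠ 0 := fun h => hv0 (by rw [← hc, h, zero_smul])
      exact ⟨(W, Units.mk0 c hc0), Subtype.ext hc⟩
  have h1 := Nat.card_congr (Equiv.ofBijective f hf)
  rw [Nat.card_prod, Nat.card_units, Nat.card_eq_fintype_card (α := F)] at h1
  have h2 : Nat.card {v : ι → F // Q v = 0} + Nat.card {v : ι → F // Q v ≠ 0} = Fintype.card F ^ Fintype.card ι := by
    rw [← Nat.card_sum, Nat.card_congr (Equiv.sumCompl fun v : ι → F => Q v = 0), Nat.card_fun,
      Nat.card_eq_fintype_card (α := F), Nat.card_eq_fintype_card (α := ι)]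
  have h3 := congrArg (fun x : ℕ => (x : ℤ)) h1
  have h4 := congrArg (fun x : ℕ => (x : ℤ)) h2
  push_cast [Nat.cast_sub (Fintype.card_pos : 1 ≤ Fintype.card F)] at h3 h4
  linear_combination h3 + h4

omit [Fintype F] in
theorem not_dvd_card [Fintype F] [CharP F 2] {r : ℕ} [Fact r.Prime] (hr2 : r ≠ 2) : ¬ r ∣ Fintype.card F := by
  obtain ⟨n, -, hn⟩ := FiniteField.card F 2
  rw [hn]
  exact fun h => hr2 ((Nat.prime_dvd_prime_iff_eq Fact.out Nat.prime_two).1 ((Fact.out : r.Prime).dvd_of_dvd_pow h))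

theorem dvd_plus [CharP F 2] {d : ℕ} {r : ℕ} [Fact r.Prime] (hr2 : r ≠ 2)
    (h : r ∣ Nat.card {W : Submodule F (Fin d ⊕ Fin d → F) // Module.finrank F ↥W = 1 ∧ ∃ v ∈ W, plusQ F d v ≠ 0}) :
    r ∣ Fintype.card F ^ d - 1 := by
  have h1 := card_points (plusQ F d)
  have h2 := card_zero_plus (F := F) d
  set q := Fintype.card F
  set N := Nat.card {W : Submodule F (Fin d ⊕ Fin d → F) // Module.finrank F ↥W = 1 ∧ ∃ v ∈ W, plusQ F d v ≠ 0}
  have hq1 : 1 < q := Fintype.one_lt_card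
  have hN : (q : ℤ) * N = (q : ℤ) ^ d * ((q : ℤ) ^ d - 1) := by
    refine mul_right_cancel₀ (show ((q : ℤ) - 1) ≠ 0 by omega) ?_
    rw [Fintype.card_sum, Fintype.card_fin, ← two_mul] at h1
    linear_combination (q : ℤ) * h1 - h2
  have hN' : q * N = q ^ d * (q ^ d - 1) := by
    have h1le : 1 ≤ q ^ d := Nat.one_le_pow _ _ (by omega)
    zify [h1le]; exact hN
  have := hN' ▸ h.mul_left q
  exact ((Fact.out : r.Prime).dvd_mul.1 this).resolve_left fun h' =>
    not_dvd_card (F := F) hr2 ((Fact.out : r.Prime).dvd_of_dvd_pow h')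

theorem dvd_minus [CharP F 2] {d : ℕ} {a b : F} (hab : CfsgLib.Orth.Binary.Aniso a b) {r : ℕ} [Fact r.Prime] (hr2 : r ≠ 2)
    (h : r ∣ Nat.card {W : Submodule F ((Fin d ⊕ Fin d) ⊕ Fin 2 → F) // Module.finrank F ↥W = 1 ∧ ∃ v ∈ W, minusQ d a b v ≠ 0}) :
    r ∣ Fintype.card F ^ (d + 1) + 1 := by
  have h1 := card_points (minusQ d a b)
  have h2 := card_zero_minus d hab
  set q := Fintype.card F
  set N := Nat.card {W : Submodule F ((Fin d ⊕ Fin d) ⊕ Fin 2 → F) // Module.finrank F ↥W = 1 ∧ ∃ v ∈ W, minusQ d a b v ≠ 0}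
  have hq1 : 1 < q := Fintype.one_lt_card
  have hN : (q : ℤ) * N = (q : ℤ) ^ (d + 1) * ((q : ℤ) ^ (d + 1) + 1) := by
    refine mul_right_cancel₀ (show ((q : ℤ) - 1) ≠ 0 by omega) ?_
    rw [Fintype.card_sum, Fintype.card_sum, Fintype.card_fin, Fintype.card_fin, h2] at h1
    linear_combination (q : ℤ) * h1
  have hN' : q * N = q ^ (d + 1) * (q ^ (d + 1) + 1) := by zify; exact hN
  have := hN' ▸ h.mul_left q
  exact ((Fact.out : r.Prime).dvd_mul.1 this).resolve_left fun h' =>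
    not_dvd_card (F := F) hr2 ((Fact.out : r.Prime).dvd_of_dvd_pow h')

variable [CharP F 2] {Q : QuadraticForm F (ι → F)}

/-- A scalar power in an isometry group is trivial. -/
theorem pow_eq_one {r : ℕ} (g : Cfsg.isometryGroup F ⇑Q) (hex : ∃ v, Q v ≠ 0) {z : F}
    (hz : (g ^ r).1.1 = z • (1 : Matrix ι ι F)) : g ^ r = 1 := by
  obtain ⟨v, hv⟩ := hex
  have h := (mem_isometryGroup_iff (⇑Q) (g ^ r).1).1 (g ^ r).2 v
  rw [hz, Matrix.smul_mulVec, Matrix.one_mulVec, QuadraticMap.map_smul, smul_eq_mul] at h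
  have h1 : z * z = 1 := mul_right_cancel₀ hv (h.trans (one_mul _).symm)
  have hz1 : z = 1 := by
    rcases mul_self_eq_one_iff.1 h1 with e | e
    · exact e
    · rw [e, CharTwo.neg_eq]
  exact Subtype.ext (Units.ext (by rw [hz, hz1, one_smul]; rfl))

/-- A fixed nonsingular point is a fixed vector. -/
theorem fixed_of_stable (g : Cfsg.isometryGroup F ⇑Q) {W : Submodule F (ι → F)} (hW : Module.finrank F ↥W = 1)
    {v : ι → F} (hv : v ∈ W) (hQv : Q v ≠ 0) (hst : W.map (Matrix.toLin' g.1.1) ≤ W) : g.1.1 *ᵥ v = v := by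
  have hv0 : v ≠ 0 := fun h => hQv (by rw [h, QuadraticMap.map_zero])
  have hspan : Submodule.span F {v} = W :=
    Submodule.eq_of_le_of_finrank_eq ((Submodule.span_singleton_le_iff_mem _ _).2 hv) (by rw [finrank_span_singleton hv0, hW])
  obtain ⟨c, hc⟩ := Submodule.mem_span_singleton.1 (hspan.ge (hst ⟨v, hv, rfl⟩))
  have h := (mem_isometryGroup_iff (⇑Q) g.1).1 g.2 v
  rw [Matrix.toLin'_apply] at hc
  rw [← hc, QuadraticMap.map_smul, smul_eq_mul] at h
  have h1 : c * c = 1 := mul_right_cancel₀ hQv (h.trans (one_mul _).symm)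
  rw [← hc]
  rcases mul_self_eq_one_iff.1 h1 with e | e
  · rw [e, one_smul]
  · rw [e, CharTwo.neg_eq, one_smul]

/-- The criterion: every element of order `r` of the commutator subgroup fixes a nonsingular point. -/
theorem criterion {r : ℕ} [Fact r.Prime] (hex : ∃ v, Q v ≠ 0) :
    (∀ x : GL ι F, x ∈ Cfsg.Geo.omegaGL ⇑Q →
      (∃ z : F, ((x ^ r : GL ι F) : Matrix ι ι F) = z • (1 : Matrix ι ι F)) →
      (∀ z : F, (x : Matrix ι ι F) ≠ z • (1 : Matrix ι ι F)) →
      ∃ W : Submodule F (ι → F), (Module.finrank F ↥W = 1 ∧ ∃ v ∈ W, Q v ≠ 0) ∧ W.map (Matrix.toLin' (x : Matrix ι ι F)) ≤ W) ↔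
    ∀ g : Cfsg.isometryGroup F ⇑Q, g ∈ Cfsg.Omega F ⇑Q → orderOf g = r → ∃ v, Q v ≠ 0 ∧ g.1.1 *ᵥ v = v := by
  constructor
  · intro h g hg hgr
    obtain ⟨W, ⟨hW, v, hv, hQv⟩, hst⟩ := h g.1 ⟨g, hg, rfl⟩
      ⟨1, by rw [← SubmonoidClass.coe_pow, ← hgr, pow_orderOf_eq_one, one_smul]; rfl⟩ (fun z hz => by
        have h1 : g ^ 1 = 1 := pow_eq_one g hex (by rw [pow_one]; exact hz)
        rw [pow_one] at h1
        rw [h1, orderOf_one] at hgr
        exact (Fact.out : r.Prime).ne_one hgr.symm)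
    exact ⟨v, hQv, fixed_of_stable g hW hv hQv hst⟩
  · rintro h x ⟨g, hg, rfl⟩ ⟨z, hz⟩ hns
    have hpow : g ^ r = 1 := pow_eq_one g hex (z := z) (by rw [SubmonoidClass.coe_pow]; exact hz)
    have hne : g ≠ 1 := fun e => hns 1 (by rw [e, one_smul]; rfl)
    obtain ⟨v, hv, hfix⟩ := h g hg (orderOf_eq_prime hpow hne)
    refine ⟨Submodule.span F {v}, ⟨finrank_span_singleton (fun e => hv (by rw [e, QuadraticMap.map_zero])), v,
      Submodule.mem_span_singleton_self v, hv⟩, ?_⟩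
    rw [Submodule.map_span, Set.image_singleton, Submodule.span_singleton_le_iff_mem, Matrix.toLin'_apply]
    show g.1.1 *ᵥ v ∈ _
    rw [hfix]; exact Submodule.mem_span_singleton_self v

/-- Elements of odd order lie in the commutator subgroup. -/
theorem mem_omega_of_odd [Nonempty ι] (hQ : (QuadraticMap.polarBilin Q).Nondegenerate)
    (hgen : Subgroup.closure (Reflections.reflections Q) = ⊤) {g : Cfsg.isometryGroup F ⇑Q} (hg : Odd (orderOf g)) :
    g ∈ Cfsg.Omega F ⇑Q := by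
  obtain ⟨D, -, hker, -⟩ := InvolutionModels.omega_parity hQ hgen
  obtain ⟨k, hk⟩ := hg
  have h : g = (g ^ (k + 1)) ^ 2 := by
    rw [← pow_mul, show (k + 1) * 2 = orderOf g + 1 by omega, pow_succ, pow_orderOf_eq_one, one_mul]
  rw [hker, h, map_pow]
  exact Int.units_pow_two _

end CfsgLib.Geometry.NonsingularPoints
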