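import Mathlib
import Cfsg.Agent.Lib.Geometry.Spinor

/-!
The centre of the derived orthogonal group consists of scalars (odd order field, dimension at least 4).
-/

set_option autoImplicit false
open scoped Matrix

namespace CfsgLib.Geometry.Spinor

open CfsgLib.Geometry.QuadBasic CfsgLib.Geometry.Reflections CfsgLib.Geometry.SpinorKey

variable {F : Type*} [Field F] {ι : Type} [Fintype ι] [DecidableEq ι] {Q : QuadraticForm F (ι → F)}
variable [Fintype F]

theorem exists_pair (h2 : (2 : F) ≠ 0) {x y : ι → F} (hx : Q x ≠ 0) (hy : Q y ≠ 0)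
    (hxy : QuadraticMap.polar (⇑Q) x y = 0) {c : F} (hc : c ≠ 0) :
    ∃ e e' : ι → F, Q e = c ∧ Q e' ≠ 0 ∧ QuadraticMap.polar (⇑Q) e e' = 0 ∧
      ∀ z, QuadraticMap.polar (⇑Q) x z = 0 → QuadraticMap.polar (⇑Q) y z = 0 →
        QuadraticMap.polar (⇑Q) e z = 0 ∧ QuadraticMap.polar (⇑Q) e' z = 0 := by
  obtain ⟨s, t, hst⟩ := CfsgLib.Forms.Represent.exists_add_eq h2 hx hy c
  have hyx : QuadraticMap.polar (⇑Q) y x = 0 := by rw [QuadraticMap.polar_comm]; exact hxy
  have hval : ∀ p r : F, Q (p • x + r • y) = p * p * Q x + r * r * Q y := fun p r => by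
    rw [map_add_smul, QuadraticMap.map_smul, QuadraticMap.polar_smul_right, hyx, smul_eq_mul, smul_zero,
      mul_zero, add_zero]
  refine ⟨s • x + t • y, (Q y * t) • x + (-(Q x * s)) • y, ?_, ?_, ?_, fun z hxz hyz => ⟨?_, ?_⟩⟩
  · rw [hval]; linear_combination hst
  · rw [hval, show Q y * t * (Q y * t) * Q x + -(Q x * s) * -(Q x * s) * Q y = Q x * Q y * c by
      linear_combination (Q x * Q y) * hst]
    exact mul_ne_zero (mul_ne_zero hx hy) hc
  · simp only [QuadraticMap.polar_add_left, QuadraticMap.polar_add_right, QuadraticMap.polar_smul_left,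
      QuadraticMap.polar_smul_right, QuadraticMap.polar_self, hxy, hyx, smul_eq_mul, two_nsmul]
    ring
  · simp [QuadraticMap.polar_add_left, QuadraticMap.polar_smul_left, hxz, hyz]
  · simp [QuadraticMap.polar_add_left, QuadraticMap.polar_smul_left, hxz, hyz]

/-- Three mutually orthogonal vectors of the same norm as a given one. -/
theorem exists_triple (h2 : (2 : F) ≠ 0) (hQ : (QuadraticMap.polarBilin Q).Nondegenerate)
    (hn : 4 ≤ Fintype.card ι) {u : ι → F} (hu : Q u ≠ 0) :
    ∃ v w : ι → F, Q v = Q u ∧ Q w = Q u ∧ QuadraticMap.polar (⇑Q) u v = 0 ∧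
      QuadraticMap.polar (⇑Q) u w = 0 ∧ QuadraticMap.polar (⇑Q) v w = 0 := by
  classical
  haveI : Invertible (2 : F) := invertibleOfNonzero h2
  have hsymm : LinearMap.IsSymm (QuadraticMap.polarBilin Q) :=
    ⟨fun x y => by simp [QuadraticMap.polar_comm]⟩
  obtain ⟨b, hb⟩ := LinearMap.BilinForm.exists_orthogonal_basis (B := QuadraticMap.polarBilin Q) hsymm
  have hne : ∀ i, Q (b i) ≠ 0 := fun i h => by
    refine hb.not_isOrtho_basis_self_of_separatingLeft hQ.1 i ?_
    change QuadraticMap.polar (⇑Q) (b i) (b i) = 0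
    rw [QuadraticMap.polar_self, h, smul_zero]
  have hrk : 4 ≤ Module.finrank F (ι → F) := by rwa [Module.finrank_fintype_fun_eq_card]
  have hp : ∀ i j, i ≠ j → QuadraticMap.polar (⇑Q) (b i) (b j) = 0 := fun i j h => hb h
  let b0 : ℕ → ι → F := fun k => if h : k < Module.finrank F (ι → F) then b ⟨k, h⟩ else 0
  have b0ne : ∀ k, k < 4 → Q (b0 k) ≠ 0 := fun k hk => by
    simp only [b0, dif_pos (show k < Module.finrank F (ι → F) by omega)]; exact hne _
  have b0p : ∀ j k, j < 4 → k < 4 → j ≠ k → QuadraticMap.polar (⇑Q) (b0 j) (b0 k) = 0 := fun j k hj hk h => by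
    simp only [b0, dif_pos (show k < Module.finrank F (ι → F) by omega),
      dif_pos (show j < Module.finrank F (ι → F) by omega)]
    exact hp _ _ (by simp [Fin.ext_iff, h])
  obtain ⟨e1, f1, he1, hf1, hef1, ho1⟩ := exists_pair h2 (b0ne 0 (by omega)) (b0ne 1 (by omega))
    (b0p 0 1 (by omega) (by omega) (by omega)) hu
  have h12 := ho1 _ (b0p 0 2 (by omega) (by omega) (by omega)) (b0p 1 2 (by omega) (by omega) (by omega))
  have h13 := ho1 _ (b0p 0 3 (by omega) (by omega) (by omega)) (b0p 1 3 (by omega) (by omega) (by omega))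
  obtain ⟨e2, f2, he2, hf2, hef2, ho2⟩ := exists_pair h2 hf1 (b0ne 2 (by omega)) h12.2 hu
  have h23 := ho2 _ h13.2 (b0p 2 3 (by omega) (by omega) (by omega))
  have h21 := ho2 e1 (by rw [QuadraticMap.polar_comm]; exact hef1) (by rw [QuadraticMap.polar_comm]; exact h12.1)
  obtain ⟨e3, f3, he3, hf3, -, ho3⟩ := exists_pair h2 hf2 (b0ne 3 (by omega)) h23.2 hu
  have h31 := ho3 e1 h21.2 (by rw [QuadraticMap.polar_comm]; exact h13.1)
  have h32 := ho3 e2 (by rw [QuadraticMap.polar_comm]; exact hef2) (by rw [QuadraticMap.polar_comm]; exact h23.1)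
  obtain ⟨r, -, hr, -⟩ := step (Q := Q) h2 (v := u) (w := e1) hu he1
  have hiso := (mem_isometryGroup_iff (⇑Q) r.1).1 r.2
  refine ⟨r.1.1 *ᵥ e2, r.1.1 *ᵥ e3, by rw [hiso, he2], by rw [hiso, he3], ?_, ?_, ?_⟩
  · conv_lhs => rw [← hr]
    rw [iso_polar, QuadraticMap.polar_comm]; exact h21.1
  · conv_lhs => rw [← hr]
    rw [iso_polar, QuadraticMap.polar_comm]; exact h31.1
  · rw [iso_polar, QuadraticMap.polar_comm]; exact h32.1

/-- Central elements of the derived group are scalar. -/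
theorem center_scalar (h2 : (2 : F) ≠ 0) (hQ : (QuadraticMap.polarBilin Q).Nondegenerate)
    (hn : 4 ≤ Fintype.card ι) (z : Cfsg.Omega F ⇑Q) (hz : z ∈ Subgroup.center (Cfsg.Omega F ⇑Q)) :
    ∃ c : F, z.1.1.1 = c • 1 := by
  classical
  haveI : Nontrivial ι := Fintype.one_lt_card_iff_nontrivial.1 (by omega)
  have hplane : ∀ u v : ι → F, Q u ≠ 0 → Q v = Q u → QuadraticMap.polar (⇑Q) u v = 0 →
      ∃ a b : F, z.1.1.1 *ᵥ u = a • u + b • v := by
    intro u v hu hvu huv
    have hv : Q v ≠ 0 := by rwa [hvu]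
    have hg : R Q u hu * R Q v hv ∈ Cfsg.Omega F ⇑Q := by
      rw [mem_omega_iff h2 hQ]
      refine ⟨?_, ?_⟩
      · rw [Subgroup.coe_mul, Units.val_mul, Matrix.det_mul, det_R, det_R]
        ring
      · rw [map_mul]
        refine Units.ext ?_
        rw [Units.val_mul, theta_R, theta_R, hvu, ← map_mul]
        simpa [pow_two] using quadraticChar_sq_one' (F := F) hu
    have hc := Subgroup.mem_center_iff.1 hz ⟨_, hg⟩
    have h1 : (R Q u hu).1.1 *ᵥ ((R Q v hv).1.1 *ᵥ u) = -u := by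
      rw [R_fix v hv (by rw [QuadraticMap.polar_comm]; exact huv), Reflections.R_apply,
        QuadraticMap.polar_self, two_nsmul, mul_add, inv_mul_cancel₀ hu, add_smul, one_smul]
      abel
    have h2' := congrArg (fun k : Cfsg.Omega F ⇑Q => k.1.1.1 *ᵥ u) hc
    simp only [Subgroup.coe_mul, Units.val_mul, ← Matrix.mulVec_mulVec, h1, Matrix.mulVec_neg] at h2'
    simp only [Reflections.R_apply] at h2'
    set x := z.1.1.1 *ᵥ u
    set p := (Q v)⁻¹ * QuadraticMap.polar (⇑Q) v x
    set p' := (Q u)⁻¹ * QuadraticMap.polar (⇑Q) u (x - p • v)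
    refine ⟨p' / 2, p / 2, ?_⟩
    have h3 : (2 : F) • x = p' • u + p • v := by
      rw [two_smul]
      linear_combination (norm := abel) h2'
    calc x = (2 : F)⁻¹ • ((2 : F) • x) := by rw [inv_smul_smul₀ h2]
      _ = (p' / 2) • u + (p / 2) • v := by
        rw [h3, smul_add, smul_smul, smul_smul, div_eq_inv_mul, div_eq_inv_mul]
  have heig : ∀ u : ι → F, Q u ≠ 0 → ∃ c : F, z.1.1.1 *ᵥ u = c • u := by
    intro u hu
    obtain ⟨v, w, hv, hw, huv, huw, hvw⟩ := exists_triple h2 hQ hn hu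
    obtain ⟨a, b, hab⟩ := hplane u v hu hv huv
    obtain ⟨a', b', hab'⟩ := hplane u w hu hw huw
    have h := congrArg (QuadraticMap.polar (⇑Q) v) (hab.symm.trans hab')
    have hvu : QuadraticMap.polar (⇑Q) v u = 0 := by rw [QuadraticMap.polar_comm]; exact huv
    simp only [QuadraticMap.polar_add_right, QuadraticMap.polar_smul_right, QuadraticMap.polar_self, hvu,
      hvw, smul_eq_mul, mul_zero, zero_add, two_nsmul, hv] at h
    have hb : b = 0 := (mul_eq_zero.1 h).resolve_right (by rw [← two_mul]; exact mul_ne_zero h2 hu)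
    exact ⟨a, by rw [hab, hb, zero_smul, add_zero]⟩
  -- commutation with every reflection
  have hcent : ∀ r : Cfsg.isometryGroup F ⇑Q, r * z.1 = z.1 * r := by
    intro r
    have hr : r ∈ Subgroup.closure (reflections Q) := by rw [closure_reflections h2 hQ]; trivial
    induction hr using Subgroup.closure_induction with
    | mem r hr =>
      obtain ⟨v, hv, hr⟩ := hr
      obtain rfl : r = R Q v hv := Subtype.ext (Units.ext hr)
      obtain ⟨c, hc⟩ := heig v hv
      have hc' : Q (c • v) ≠ 0 := by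
        rw [← hc, (mem_isometryGroup_iff (⇑Q) z.1.1).1 z.1.2]; exact hv
      have h := R_conj z.1 hv hc' hc
      rw [R_smul c hv hc'] at h
      exact (mul_inv_eq_iff_eq_mul.1 h).symm
    | one => rw [one_mul, mul_one]
    | mul x y _ _ hx hy => rw [mul_assoc, hy, ← mul_assoc, hx, mul_assoc]
    | inv x _ hx => exact (show Commute x z.1 from hx).inv_left.eq
  have hzero : ∀ (u : ι → F) (c d : F), u ≠ 0 → c • u = d • u → c = d := fun u c d hu h =>
    sub_eq_zero.1 ((smul_eq_zero.1 (show (c - d) • u = 0 by rw [sub_smul, h, sub_self])).resolve_right hu)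
  have hne0 : ∀ u : ι → F, Q u ≠ 0 → u ≠ 0 := fun u hu h => hu (by rw [h, QuadraticMap.map_zero])
  obtain ⟨e, he⟩ := exists_norm h2 hQ (1 : F)
  have he0 : Q e ≠ 0 := by rw [he]; exact one_ne_zero
  obtain ⟨c, hc⟩ := heig e he0
  obtain ⟨v, -, hv, -, hev, -, -⟩ := exists_triple h2 hQ hn he0
  have hve : QuadraticMap.polar (⇑Q) v e = 0 := by rw [QuadraticMap.polar_comm]; exact hev
  have hcomb : ∀ p r : F, Q (p • e + r • v) = p * p + r * r := fun p r => by
    rw [map_add_smul, QuadraticMap.map_smul, QuadraticMap.polar_smul_right, hve, he, hv, he, smul_eq_mul,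
      smul_zero, mul_zero, add_zero, mul_one, mul_one]
  have hindep : ∀ p r : F, p • e + r • v = 0 → p = 0 ∧ r = 0 := fun p r h => by
    have h1 := congrArg (QuadraticMap.polar (⇑Q) e) h
    have h2' := congrArg (QuadraticMap.polar (⇑Q) v) h
    simp only [QuadraticMap.polar_add_right, QuadraticMap.polar_smul_right, QuadraticMap.polar_self, hev, hve,
      hv, he, smul_eq_mul, two_nsmul, QuadraticMap.polar_zero_right, mul_zero, add_zero, zero_add] at h1 h2'
    exact ⟨(mul_eq_zero.1 h1).resolve_right (by rw [one_add_one_eq_two]; exact h2),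
      (mul_eq_zero.1 h2').resolve_right (by rw [one_add_one_eq_two]; exact h2)⟩
  obtain ⟨d, hd⟩ := heig v (by rw [hv]; exact he0)
  have hdc : d = c := by
    have h11 : Q ((1 : F) • e + (1 : F) • v) ≠ 0 := by rw [hcomb, mul_one, one_add_one_eq_two]; exact h2
    obtain ⟨k, hk⟩ := heig _ h11
    rw [Matrix.mulVec_add, Matrix.mulVec_smul, Matrix.mulVec_smul, hc, hd, one_smul, one_smul, one_smul,
      one_smul, smul_add, ← sub_eq_zero, add_sub_add_comm, ← sub_smul, ← sub_smul] at hk
    obtain ⟨h1, h2'⟩ := hindep _ _ hk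
    rw [sub_eq_zero] at h1 h2'
    rw [h2', h1]
  have hall : ∀ u : ι → F, Q u ≠ 0 → z.1.1.1 *ᵥ u = c • u := by
    intro u hu
    obtain ⟨s, t, hst⟩ := CfsgLib.Forms.Represent.exists_add_eq h2 (one_ne_zero (α := F)) (one_ne_zero (α := F)) (Q u)
    have hQe : Q (s • e + t • v) = Q u := by rw [hcomb]; linear_combination hst
    obtain ⟨r, -, hr, -⟩ := step (Q := Q) h2 (v := u) (w := s • e + t • v) hu hQe
    have hzw : z.1.1.1 *ᵥ (s • e + t • v) = c • (s • e + t • v) := by
      rw [Matrix.mulVec_add, Matrix.mulVec_smul, Matrix.mulVec_smul, hc, hd, hdc, smul_add, smul_comm s,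
        smul_comm t]
    conv_lhs => rw [← hr, Matrix.mulVec_mulVec, ← Units.val_mul, ← Subgroup.coe_mul, ← hcent,
      Subgroup.coe_mul, Units.val_mul, ← Matrix.mulVec_mulVec, hzw, Matrix.mulVec_smul, hr]
  haveI : Invertible (2 : F) := invertibleOfNonzero h2
  obtain ⟨b, hb⟩ := LinearMap.BilinForm.exists_orthogonal_basis (B := QuadraticMap.polarBilin Q)
    (⟨fun x y => by simp [QuadraticMap.polar_comm]⟩)
  have hne : ∀ i, Q (b i) ≠ 0 := fun i h => by
    refine hb.not_isOrtho_basis_self_of_separatingLeft hQ.1 i ?_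
    change QuadraticMap.polar (⇑Q) (b i) (b i) = 0
    rw [QuadraticMap.polar_self, h, smul_zero]
  refine ⟨c, Matrix.toLin'.injective (b.ext fun i => ?_)⟩
  rw [Matrix.toLin'_apply, Matrix.toLin'_apply, hall _ (hne i), Matrix.smul_mulVec, Matrix.one_mulVec]

end CfsgLib.Geometry.Spinor
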