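import Mathlib
import Cfsg.Prelude.Def_ClassicalGeometry
import Cfsg.Agent.Lib.Geometry.OmegaIndex
import Cfsg.Agent.Lib.Geometry.SpinorCenter

/-!
The centre of the commutator subgroup of an orthogonal group and the order of its central quotient.
-/

set_option autoImplicit false
open scoped Matrix commutatorElement

namespace CfsgLib.Geometry.OmegaCenter

open CfsgLib.Geometry CfsgLib.Geometry.QuadBasic

variable {F : Type*} [Field F] {ι : Type} [Fintype ι] [DecidableEq ι] {Q : QuadraticForm F (ι → F)}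

/-- A vector orthogonal to all anisotropic vectors is zero. -/
theorem eq_zero_of_perp_aniso (hQ : (QuadraticMap.polarBilin Q).Nondegenerate) (hn : 3 ≤ Fintype.card ι)
    {d : ι → F} (h : ∀ a, Q a ≠ 0 → QuadraticMap.polar (⇑Q) d a = 0) : d = 0 := by
  by_contra hd
  obtain ⟨y, hy⟩ : ∃ y, QuadraticMap.polar (⇑Q) d y ≠ 0 := by
    by_contra hc
    simp only [not_exists, not_not] at hc
    exact hd (hQ.1 d hc)
  have hzero : ∀ x, QuadraticMap.polar (⇑Q) d x ≠ 0 → Q x = 0 := fun x hx => by
    by_contra hq; exact hx (h x hq)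
  set H := LinearMap.ker (QuadraticMap.polarBilin Q d)
  have hH : ∀ x ∈ H, Q x = -QuadraticMap.polar (⇑Q) y x := fun x hx => by
    have hx0 : QuadraticMap.polar (⇑Q) d x = 0 := LinearMap.mem_ker.1 hx
    have h1 : Q (y + x) = 0 := hzero _ (by rw [QuadraticMap.polar_add_right, hx0, add_zero]; exact hy)
    have h2 := hzero y hy
    rw [QuadraticMap.polar, h1, h2]; ring
  have hle : H ≤ LinearMap.BilinForm.orthogonal (QuadraticMap.polarBilin Q) H := fun x hx => by
    rw [LinearMap.BilinForm.mem_orthogonal_iff]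
    intro z hz
    show QuadraticMap.polar (⇑Q) z x = 0
    rw [QuadraticMap.polar, hH _ (H.add_mem hz hx), hH _ hz, hH _ hx, QuadraticMap.polar_add_right]; ring
  have h1 := Submodule.finrank_mono hle
  rw [LinearMap.BilinForm.finrank_orthogonal hQ, Module.finrank_fintype_fun_eq_card] at h1
  have h2 := (QuadraticMap.polarBilin Q d).finrank_range_add_finrank_ker
  rw [Module.finrank_fintype_fun_eq_card] at h2
  have h3 : Module.finrank F (LinearMap.range (QuadraticMap.polarBilin Q d)) ≤ 1 :=
    (Submodule.finrank_le _).trans (le_of_eq (Module.finrank_self F))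
  change _ + Module.finrank F H = _ at h2
  omega

/-- In characteristic two the centre of the commutator subgroup is trivial. -/
theorem center_omega_two [Finite F] [CharP F 2] (hQ : (QuadraticMap.polarBilin Q).Nondegenerate)
    (hn : 5 ≤ Fintype.card ι) : Subgroup.center (Cfsg.Omega F ⇑Q) = ⊥ := by
  classical
  haveI : Nonempty ι := Fintype.card_pos_iff.1 (by omega)
  have hex : (∃ c : F, c ≠ 0 ∧ c ≠ 1) ∨ Fintype.card ι ≠ 4 := Or.inr (by omega)
  have hpair : ∀ u v (hu : Q u ≠ 0) (hv : Q v ≠ 0), Reflections.R Q u hu * Reflections.R Q v hv ∈ Cfsg.Omega F ⇑Q := by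
    intro u v hu hv
    have hnot : ∀ w (hw : Q w ≠ 0), Reflections.R Q w hw ∉ Cfsg.Omega F ⇑Q := by
      obtain ⟨D, hD⟩ := DicksonGen.exists_dickson hQ hex
      intro w hw hm
      have h1 : Reflections.R Q w hw ∈ D.ker := Abelianization.commutator_subset_ker D hm
      rw [MonoidHom.mem_ker, hD] at h1
      exact absurd h1 (by decide)
    rw [Subgroup.mul_mem_iff_of_index_two (OmegaIndex.index_omega_two hQ hex)]
    exact iff_of_false (hnot u hu) (hnot v hv)
  rw [Subgroup.eq_bot_iff_forall]
  intro z hz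
  set g := z.1 with hgz
  have hQg : ∀ x, Q (g.1.1 *ᵥ x) = Q x := (mem_isometryGroup_iff (⇑Q) g.1).1 g.2
  -- conjugate pairs agree
  have hconj : ∀ u v (hu : Q u ≠ 0) (hv : Q v ≠ 0),
      Reflections.R Q u hu * Reflections.R Q (g.1.1 *ᵥ u) (by rw [hQg]; exact hu)
        = Reflections.R Q v hv * Reflections.R Q (g.1.1 *ᵥ v) (by rw [hQg]; exact hv) := by
    intro u v hu hv
    have hc := congrArg Subtype.val (Subgroup.mem_center_iff.1 hz ⟨_, hpair u v hu hv⟩)
    simp only [Subgroup.coe_mul] at hc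
    rw [← hgz] at hc
    have e1 := Spinor.R_conj g hu (w := g.1.1 *ᵥ u) (by rw [hQg]; exact hu) rfl
    have e2 := Spinor.R_conj g hv (w := g.1.1 *ᵥ v) (by rw [hQg]; exact hv) rfl
    have hsq : ∀ w (hw : Q w ≠ 0), (Reflections.R Q w hw)⁻¹ = Reflections.R Q w hw := fun w hw => by
      refine inv_eq_of_mul_eq_one_right (Subtype.ext (Units.ext (Matrix.toLin'.injective (LinearMap.ext fun x => ?_))))
      simp only [Subgroup.coe_mul, Units.val_mul, Matrix.toLin'_apply, ← Matrix.mulVec_mulVec, Reflections.R_apply,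
        OneMemClass.coe_one, Units.val_one, Matrix.one_mulVec, QuadraticMap.polar_sub_right,
        QuadraticMap.polar_smul_right, QuadraticMap.polar_self, smul_eq_mul]
      match_scalars <;> field_simp <;> ring
    set a := Reflections.R Q u hu
    set b := Reflections.R Q v hv
    have e3 : (g * a * g⁻¹) * (g * b * g⁻¹) = a * b := by
      rw [show (g * a * g⁻¹) * (g * b * g⁻¹) = (g * (a * b)) * g⁻¹ by group, ← hc]; group
    rw [e1, e2] at e3
    set a' := Reflections.R Q (g.1.1 *ᵥ u) (by rw [hQg]; exact hu)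
    set b' := Reflections.R Q (g.1.1 *ᵥ v) (by rw [hQg]; exact hv)
    have e4 : a' = a * b * b'⁻¹ := by rw [← e3, mul_inv_cancel_right]
    calc a * a' = a * (a * b * b'⁻¹) := by rw [← e4]
      _ = a⁻¹ * (a * b * b'⁻¹) := by rw [show a⁻¹ = a from hsq u hu]
      _ = b * b'⁻¹ := by group
      _ = b * b' := by rw [show b'⁻¹ = b' from hsq _ _]
  have hfix : ∀ u, Q u ≠ 0 → g.1.1 *ᵥ u = u := by
    intro u hu
    have hgu : Q (g.1.1 *ᵥ u) ≠ 0 := by rw [hQg]; exact hu
    have hu0 : u ≠ 0 := fun e => hu (by rw [e, QuadraticMap.map_zero])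
    by_cases hs : g.1.1 *ᵥ u ∈ Submodule.span F {u}
    · obtain ⟨c, hc⟩ := Submodule.mem_span_singleton.1 hs
      have h1 : c * c = 1 := by
        have := hQg u
        rw [← hc, QuadraticMap.map_smul, smul_eq_mul] at this
        exact mul_right_cancel₀ hu (this.trans (one_mul _).symm)
      rcases mul_self_eq_one_iff.1 h1 with e | e
      · rw [← hc, e, one_smul]
      · rw [← hc, e, CharTwo.neg_eq, one_smul]
    · exfalso
      -- the common product has a two-dimensional image containing every anisotropic vector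
      have hR1 : ∀ w (hw : Q w ≠ 0), DicksonGen.rk (Reflections.R Q w hw) = 1 ∧
          LinearMap.range (DicksonGen.N (Reflections.R Q w hw)) = Submodule.span F {w} := by
        intro w hw
        have hN : DicksonGen.N (1 : Cfsg.isometryGroup F ⇑Q) = 0 := LinearMap.ext fun x => by simp [DicksonGen.N_apply]
        have hw0 : w ≠ 0 := fun e => hw (by rw [e, QuadraticMap.map_zero])
        have hup := DicksonGen.rk_up hQ 1 hw (by rw [hN, LinearMap.range_zero, Submodule.mem_bot]; exact hw0)
        rw [mul_one] at hup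
        refine ⟨?_, ?_⟩
        · rw [hup.1, DicksonGen.rk, hN, LinearMap.range_zero, finrank_bot]
        · rw [hup.2, hN, LinearMap.range_zero, bot_sup_eq]
      have hne1 : u ∉ LinearMap.range (DicksonGen.N (Reflections.R Q (g.1.1 *ᵥ u) hgu)) := by
        rw [(hR1 _ hgu).2]
        intro hm
        obtain ⟨c, hc⟩ := Submodule.mem_span_singleton.1 hm
        have hc0 : c ≠ 0 := fun e => hu0 (by rw [← hc, e, zero_smul])
        exact hs (Submodule.mem_span_singleton.2 ⟨c⁻¹, (inv_smul_eq_iff₀ hc0).2 hc.symm⟩)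
      obtain ⟨hrk, -⟩ := DicksonGen.rk_up hQ _ hu hne1
      rw [(hR1 _ hgu).1] at hrk
      set P := LinearMap.range (DicksonGen.N (Reflections.R Q u hu * Reflections.R Q (g.1.1 *ᵥ u) hgu)) with hP
      have hall : ∀ v, Q v ≠ 0 → v ∈ P := by
        intro v hv
        have hgv : Q (g.1.1 *ᵥ v) ≠ 0 := by rw [hQg]; exact hv
        have e : Reflections.R Q u hu * Reflections.R Q (g.1.1 *ᵥ u) hgu
            = Reflections.R Q v hv * Reflections.R Q (g.1.1 *ᵥ v) hgv := hconj u v hu hv
        rw [hP, e]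
        rw [e] at hrk
        by_cases hm : v ∈ LinearMap.range (DicksonGen.N (Reflections.R Q (g.1.1 *ᵥ v) hgv))
        · have := DicksonGen.rk_down hQ _ hv hm
          rw [(hR1 _ hgv).1] at this
          omega
        · rw [(DicksonGen.rk_up hQ _ hv hm).2]
          exact Submodule.mem_sup_right (Submodule.mem_span_singleton_self v)
      have hP2 : Module.finrank F P = 2 := hrk
      have hlt := LinearMap.BilinForm.finrank_orthogonal hQ P
      rw [Module.finrank_fintype_fun_eq_card, hP2] at hlt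
      have hperp : LinearMap.BilinForm.orthogonal (QuadraticMap.polarBilin Q) P ≠ ⊥ := fun e => by
        rw [e, finrank_bot] at hlt; omega
      obtain ⟨d, hd, hd0⟩ := Submodule.exists_mem_ne_zero_of_ne_bot hperp
      refine hd0 (eq_zero_of_perp_aniso hQ (by omega) fun a ha => ?_)
      rw [QuadraticMap.polar_comm]
      exact (LinearMap.BilinForm.mem_orthogonal_iff.1 hd) a (hall a ha)
  refine Subtype.ext (Subtype.ext (Units.ext (Matrix.toLin'.injective (LinearMap.ext fun x => ?_))))
  simp only [OneMemClass.coe_one, Units.val_one, Matrix.toLin'_apply, Matrix.one_mulVec]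
  rw [← hgz]
  refine sub_eq_zero.1 (eq_zero_of_perp_aniso hQ (by omega) fun a ha => ?_)
  rw [QuadraticMap.polar_sub_left]
  conv_lhs => arg 1; rw [← hfix a ha]
  rw [Reflections.iso_polar, sub_self]

/-- In odd characteristic and even dimension the centre has order two or one, as minus the identity lies in it or not. -/
theorem card_center_odd [Fintype F] [DecidableEq F] (h2 : (2 : F) ≠ 0) (hQ : (QuadraticMap.polarBilin Q).Nondegenerate)
    (hn : 4 ≤ Fintype.card ι) :
    (∀ g ∈ Cfsg.Omega F ⇑Q, g.1.1 ≠ -1) ∧ Nat.card (Subgroup.center (Cfsg.Omega F ⇑Q)) = 1 ∨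
    (∃ g ∈ Cfsg.Omega F ⇑Q, g.1.1 = -1) ∧ Nat.card (Subgroup.center (Cfsg.Omega F ⇑Q)) = 2 := by
  classical
  haveI : Nonempty ι := Fintype.card_pos_iff.1 (by omega)
  obtain ⟨v, hv⟩ := OmegaIndex.exists_aniso hQ
  have hval : ∀ z : Cfsg.Omega F ⇑Q, z ∈ Subgroup.center (Cfsg.Omega F ⇑Q) →
      z = 1 ∨ z.1.1.1 = -1 := by
    intro z hz
    obtain ⟨c, hc⟩ := Spinor.center_scalar h2 hQ hn z hz
    have h := (mem_isometryGroup_iff _ z.1.1).1 z.1.2 v
    rw [hc, Matrix.smul_mulVec, Matrix.one_mulVec, QuadraticMap.map_smul, smul_eq_mul] at h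
    rcases mul_self_eq_one_iff.1 (mul_right_cancel₀ hv (h.trans (one_mul _).symm)) with e | e
    · left; exact Subtype.ext (Subtype.ext (Units.ext (by rw [hc, e, one_smul]; rfl)))
    · right; rw [hc, e, neg_smul, one_smul]
  by_cases h : ∃ g ∈ Cfsg.Omega F ⇑Q, g.1.1 = -1
  · refine Or.inr ⟨h, ?_⟩
    obtain ⟨g, hg, hg1⟩ := h
    have hcen : (⟨g, hg⟩ : Cfsg.Omega F ⇑Q) ∈ Subgroup.center _ := Subgroup.mem_center_iff.2 fun x =>
      Subtype.ext (Subtype.ext (Units.ext (by simp [hg1])))
    rw [Nat.card_eq_two_iff]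
    refine ⟨1, ⟨_, hcen⟩, fun e => ?_, Set.eq_univ_of_forall fun z => ?_⟩
    · have e' := congrArg (fun x : Subgroup.center (Cfsg.Omega F ⇑Q) => x.1.1.1.1 *ᵥ v) e
      simp only [OneMemClass.coe_one, Units.val_one, Matrix.one_mulVec, hg1, Matrix.neg_mulVec] at e'
      have h0 : (2 : F) • v = 0 := by rw [two_smul]; linear_combination (norm := module) e'
      exact hv (by rw [(smul_eq_zero.1 h0).resolve_left h2, QuadraticMap.map_zero])
    · rcases hval z.1 z.2 with e | e
      · left; exact Subtype.ext e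
      · right; exact Subtype.ext (Subtype.ext (Subtype.ext (Units.ext (e.trans hg1.symm))))
  · simp only [not_exists, not_and] at h
    refine Or.inl ⟨h, ?_⟩
    rw [Subgroup.card_eq_one, Subgroup.eq_bot_iff_forall]
    intro z hz
    rcases hval z hz with e | e
    · exact e
    · exact absurd e (h z.1 z.2)

/-- Order of the central quotient. -/
theorem card_isometry_eq [Finite F] :
    Nat.card (Cfsg.isometryGroup F ⇑Q) = (Cfsg.Omega F ⇑Q).index *
      Nat.card (Subgroup.center (Cfsg.Omega F ⇑Q)) * Nat.card (Cfsg.POmega F ⇑Q) := by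
  rw [← Subgroup.card_mul_index (Cfsg.Omega F ⇑Q),
    Subgroup.card_eq_card_quotient_mul_card_subgroup (Subgroup.center (Cfsg.Omega F ⇑Q))]
  show Nat.card (Cfsg.POmega F ⇑Q) * _ * _ = _
  ring

end CfsgLib.Geometry.OmegaCenter
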