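import Mathlib
import Cfsg.Prelude.Def_ClassicalGeometry
import Cfsg.Agent.Lib.Geometry.OmegaTools

/-!
The derived group of an orthogonal sum.
-/

set_option autoImplicit false
open scoped Matrix commutatorElement

namespace CfsgLib.Geometry.OmegaSum

open CfsgLib.Geometry CfsgLib.Geometry.QuadBasic

variable {F : Type*} [Field F] {α β : Type} [Fintype α] [DecidableEq α] [Fintype β] [DecidableEq β]

/-- The orthogonal sum. -/
noncomputable def sumQ (Q₁ : QuadraticForm F (α → F)) (Q₂ : QuadraticForm F (β → F)) :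
    QuadraticForm F (α ⊕ β → F) :=
  Q₁.comp (LinearMap.funLeft F F Sum.inl) + Q₂.comp (LinearMap.funLeft F F Sum.inr)

theorem sumQ_apply (Q₁ : QuadraticForm F (α → F)) (Q₂ : QuadraticForm F (β → F)) (v : α ⊕ β → F) :
    sumQ Q₁ Q₂ v = Q₁ (v ∘ Sum.inl) + Q₂ (v ∘ Sum.inr) := by simp [sumQ, LinearMap.funLeft]

theorem sumQ_elim (Q₁ : QuadraticForm F (α → F)) (Q₂ : QuadraticForm F (β → F)) (x : α → F) (y : β → F) :
    sumQ Q₁ Q₂ (Sum.elim x y) = Q₁ x + Q₂ y := by rw [sumQ_apply]; rfl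

theorem polar_sumQ (Q₁ : QuadraticForm F (α → F)) (Q₂ : QuadraticForm F (β → F)) (v w : α ⊕ β → F) :
    QuadraticMap.polar (⇑(sumQ Q₁ Q₂)) v w = QuadraticMap.polar (⇑Q₁) (v ∘ Sum.inl) (w ∘ Sum.inl)
      + QuadraticMap.polar (⇑Q₂) (v ∘ Sum.inr) (w ∘ Sum.inr) := by
  simp only [QuadraticMap.polar, sumQ_apply]
  rw [show (v + w) ∘ Sum.inl = v ∘ Sum.inl + w ∘ Sum.inl from rfl,
    show (v + w) ∘ Sum.inr = v ∘ Sum.inr + w ∘ Sum.inr from rfl]
  ring

theorem nondeg_sumQ {Q₁ : QuadraticForm F (α → F)} {Q₂ : QuadraticForm F (β → F)}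
    (h₁ : (QuadraticMap.polarBilin Q₁).Nondegenerate) (h₂ : (QuadraticMap.polarBilin Q₂).Nondegenerate) :
    (QuadraticMap.polarBilin (sumQ Q₁ Q₂)).Nondegenerate := by
  have key : ∀ v, (∀ w, QuadraticMap.polar (⇑(sumQ Q₁ Q₂)) v w = 0) → v = 0 := by
    intro v hv
    have e1 : v ∘ Sum.inl = 0 := h₁.1 _ fun x => by
      show QuadraticMap.polar (⇑Q₁) (v ∘ Sum.inl) x = 0
      have := hv (Sum.elim x 0)
      rw [polar_sumQ, Sum.elim_comp_inl, Sum.elim_comp_inr, QuadraticMap.polar_zero_right, add_zero] at this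
      exact this
    have e2 : v ∘ Sum.inr = 0 := h₂.1 _ fun x => by
      show QuadraticMap.polar (⇑Q₂) (v ∘ Sum.inr) x = 0
      have := hv (Sum.elim 0 x)
      rw [polar_sumQ, Sum.elim_comp_inl, Sum.elim_comp_inr, QuadraticMap.polar_zero_right, zero_add] at this
      exact this
    funext s
    rcases s with a | b
    · exact congrFun e1 a
    · exact congrFun e2 b
  exact ⟨fun v hv => key v hv, fun v hv => key v fun w => by rw [QuadraticMap.polar_comm]; exact hv w⟩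

variable {Q₁ : QuadraticForm F (α → F)} {Q₂ : QuadraticForm F (β → F)}

/-- Block diagonal isometries. -/
noncomputable def diagHom : Cfsg.isometryGroup F ⇑Q₁ × Cfsg.isometryGroup F ⇑Q₂ →* Cfsg.isometryGroup F ⇑(sumQ Q₁ Q₂) where
  toFun g := ⟨⟨Matrix.fromBlocks g.1.1.1 0 0 g.2.1.1, Matrix.fromBlocks (g.1⁻¹).1.1 0 0 (g.2⁻¹).1.1,
    by rw [Matrix.fromBlocks_multiply, ← Units.val_mul, ← Units.val_mul, ← Subgroup.coe_mul, ← Subgroup.coe_mul,
      mul_inv_cancel, mul_inv_cancel]; simp [Matrix.fromBlocks_one],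
    by rw [Matrix.fromBlocks_multiply, ← Units.val_mul, ← Units.val_mul, ← Subgroup.coe_mul, ← Subgroup.coe_mul,
      inv_mul_cancel, inv_mul_cancel]; simp [Matrix.fromBlocks_one]⟩,
    (mem_isometryGroup_iff _ _).2 fun v => by
      show sumQ Q₁ Q₂ (Matrix.fromBlocks g.1.1.1 0 0 g.2.1.1 *ᵥ v) = sumQ Q₁ Q₂ v
      rw [sumQ_apply, sumQ_apply]
      simp only [Matrix.fromBlocks_mulVec, Matrix.zero_mulVec, add_zero, zero_add, Sum.elim_comp_inl, Sum.elim_comp_inr]
      rw [(mem_isometryGroup_iff (⇑Q₁) g.1.1).1 g.1.2, (mem_isometryGroup_iff (⇑Q₂) g.2.1).1 g.2.2]⟩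
  map_one' := Subtype.ext (Units.ext (by simp [Matrix.fromBlocks_one]))
  map_mul' g h := Subtype.ext (Units.ext (by simp [Matrix.fromBlocks_multiply]))

theorem diagHom_apply (g : Cfsg.isometryGroup F ⇑Q₁ × Cfsg.isometryGroup F ⇑Q₂) (v : α ⊕ β → F) :
    (diagHom g).1.1 *ᵥ v = Sum.elim (g.1.1.1 *ᵥ (v ∘ Sum.inl)) (g.2.1.1 *ᵥ (v ∘ Sum.inr)) := by
  show Matrix.fromBlocks g.1.1.1 0 0 g.2.1.1 *ᵥ v = _
  simp [Matrix.fromBlocks_mulVec]

theorem diag_R {a : α → F} (ha : Q₁ a ≠ 0) (ha' : sumQ Q₁ Q₂ (Sum.elim a 0) ≠ 0) :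
    diagHom (Reflections.R Q₁ a ha, (1 : Cfsg.isometryGroup F ⇑Q₂)) = Reflections.R (sumQ Q₁ Q₂) (Sum.elim a 0) ha' := by
  refine Subtype.ext (Units.ext (Matrix.toLin'.injective (LinearMap.ext fun v => ?_)))
  simp only [Matrix.toLin'_apply]
  rw [diagHom_apply, Reflections.R_apply, Reflections.R_apply, sumQ_elim, polar_sumQ, Sum.elim_comp_inl,
    Sum.elim_comp_inr, QuadraticMap.map_zero, add_zero, QuadraticMap.polar_zero_left, add_zero]
  funext s
  rcases s with x | y <;> simp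

theorem inl_omega {g : Cfsg.isometryGroup F ⇑Q₁} (hg : g ∈ Cfsg.Omega F ⇑Q₁) :
    diagHom (g, (1 : Cfsg.isometryGroup F ⇑Q₂)) ∈ Cfsg.Omega F ⇑(sumQ Q₁ Q₂) := by
  let f : Cfsg.isometryGroup F ⇑Q₁ →* Cfsg.isometryGroup F ⇑(sumQ Q₁ Q₂) := diagHom.comp (MonoidHom.inl _ _)
  have h : (Cfsg.Omega F ⇑Q₁).map f ≤ Cfsg.Omega F ⇑(sumQ Q₁ Q₂) := by
    show Subgroup.map f (commutator _) ≤ commutator _
    rw [commutator_def, commutator_def, Subgroup.map_commutator]
    exact Subgroup.commutator_mono le_top le_top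
  exact h ⟨g, hg, rfl⟩

theorem det_inl (g : Cfsg.isometryGroup F ⇑Q₁) :
    (diagHom (g, (1 : Cfsg.isometryGroup F ⇑Q₂))).1.1.det = g.1.1.det := by
  show (Matrix.fromBlocks g.1.1 0 0 (1 : Cfsg.isometryGroup F ⇑Q₂).1.1).det = _
  simp

theorem det_omega {ι : Type} [Fintype ι] [DecidableEq ι] {Q : QuadraticForm F (ι → F)}
    {g : Cfsg.isometryGroup F ⇑Q} (hg : g ∈ Cfsg.Omega F ⇑Q) : g.1.1.det = 1 := by
  have h : Cfsg.Omega F ⇑Q ≤ Cfsg.specialIsometryGroup F ⇑Q := Abelianization.commutator_subset_ker _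
  exact OmegaIndex.mem_special.1 (h hg)

/-- The derived group of a summand is detected in the sum. -/
theorem inl_omega_iff [Fintype F] [DecidableEq F] (h₁ : (QuadraticMap.polarBilin Q₁).Nondegenerate)
    (h₂ : (QuadraticMap.polarBilin Q₂).Nondegenerate)
    (hex₁ : (∃ c : F, c ≠ 0 ∧ c ≠ 1) ∨ Fintype.card α ≠ 4)
    (hex : (∃ c : F, c ≠ 0 ∧ c ≠ 1) ∨ Fintype.card (α ⊕ β) ≠ 4) (g : Cfsg.isometryGroup F ⇑Q₁) :
    diagHom (g, (1 : Cfsg.isometryGroup F ⇑Q₂)) ∈ Cfsg.Omega F ⇑(sumQ Q₁ Q₂) ↔ g ∈ Cfsg.Omega F ⇑Q₁ := by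
  refine ⟨fun h => ?_, inl_omega⟩
  have hd : g.1.1.det = 1 := by rw [← det_inl (Q₂ := Q₂) g]; exact det_omega h
  rcases subsingleton_or_nontrivial α with hα | hα
  · -- dimension at most one
    have : g = 1 := by
      refine Subtype.ext (Units.ext (Matrix.ext fun i j => ?_))
      haveI : Unique α := uniqueOfSubsingleton i
      rw [Matrix.det_unique] at hd
      rw [Subsingleton.elim j i]
      simp only [OneMemClass.coe_one, Units.val_one, Matrix.one_apply_eq]
      rw [Subsingleton.elim i default]; exact hd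
    rw [this]; exact one_mem _
  haveI : Nontrivial (α ⊕ β) := Sum.inl_injective.nontrivial
  have hs := nondeg_sumQ h₁ h₂
  by_contra hg
  obtain ⟨a, ha⟩ := OmegaIndex.exists_aniso h₁
  have hemb : ∀ a : α → F, Q₁ a ≠ 0 → sumQ Q₁ Q₂ (Sum.elim a 0) ≠ 0 := fun a ha => by
    rwa [sumQ_elim, QuadraticMap.map_zero, add_zero]
  by_cases h2 : (2 : F) = 0
  · haveI : CharP F 2 := CharTwo.of_one_ne_zero_of_two_eq_zero one_ne_zero h2
    rcases OmegaTools.adjust_two h₁ hex₁ g ha with h1 | h1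
    · exact hg h1
    · have h3 := inl_omega (Q₂ := Q₂) h1
      rw [show ((Reflections.R Q₁ a ha * g, (1 : Cfsg.isometryGroup F ⇑Q₂)))
        = (Reflections.R Q₁ a ha, (1 : Cfsg.isometryGroup F ⇑Q₂)) * (g, 1) by rw [Prod.mk_mul_mk, mul_one],
        map_mul, diag_R ha (hemb a ha)] at h3
      obtain ⟨D, hD⟩ := DicksonGen.exists_dickson hs hex
      have hker : Cfsg.Omega F ⇑(sumQ Q₁ Q₂) ≤ D.ker := Abelianization.commutator_subset_ker D
      have e1 := hker h3
      have e2 := hker h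
      rw [MonoidHom.mem_ker] at e1 e2
      rw [map_mul, e2, mul_one, hD] at e1
      exact absurd e1 (by decide)
  · obtain ⟨l, hl⟩ := Spinor.exists_isProd Q₁ h2 h₁ g
    have hl' : Spinor.IsProd (sumQ Q₁ Q₂) (diagHom (g, (1 : Cfsg.isometryGroup F ⇑Q₂))) (l.map fun v => Sum.elim v 0) := by
      clear hg h hd
      induction l generalizing g with
      | nil =>
        have : g = 1 := Subtype.ext (Units.ext (Matrix.toLin'.injective (LinearMap.ext fun w => by
          simpa [SpinorKey.reflProd] using hl.2 w)))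
        rw [this, show ((1 : Cfsg.isometryGroup F ⇑Q₁), (1 : Cfsg.isometryGroup F ⇑Q₂)) = 1 from rfl, map_one]
        exact ⟨by simp, fun w => by simp [SpinorKey.reflProd]⟩
      | cons b l ih =>
        have hb : Q₁ b ≠ 0 := hl.1 b (List.mem_cons_self ..)
        have hg' : Spinor.IsProd Q₁ (Reflections.R Q₁ b hb * g) l := by
          refine ⟨fun c hc => hl.1 c (List.mem_cons_of_mem _ hc), fun w => ?_⟩
          rw [Subgroup.coe_mul, Units.val_mul, ← Matrix.mulVec_mulVec, hl.2, Spinor.refl_eq_R]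
          exact Spinor.refl_refl Q₁ hb _
        obtain ⟨i1, i2⟩ := ih _ hg'
        rw [show ((Reflections.R Q₁ b hb * g, (1 : Cfsg.isometryGroup F ⇑Q₂)))
          = (Reflections.R Q₁ b hb, (1 : Cfsg.isometryGroup F ⇑Q₂)) * (g, 1) by rw [Prod.mk_mul_mk, mul_one],
          map_mul, diag_R hb (hemb b hb)] at i2
        refine ⟨fun c hc => ?_, fun w => ?_⟩
        · rcases List.mem_cons.1 hc with rfl | hc
          · exact hemb b hb
          · exact i1 c hc
        · have := i2 w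
          rw [Subgroup.coe_mul, Units.val_mul, ← Matrix.mulVec_mulVec, Spinor.refl_eq_R] at this
          rw [List.map_cons, SpinorKey.reflProd, ← this]
          exact (Spinor.refl_refl (sumQ Q₁ Q₂) (hemb b hb) _).symm
    rw [OmegaTools.mem_omega_of_isProd h2 h₁ hl] at hg
    rw [OmegaTools.mem_omega_of_isProd h2 hs hl', List.length_map, List.map_map] at h
    refine hg ?_
    rwa [show (⇑(sumQ Q₁ Q₂) ∘ fun v => Sum.elim v 0) = ⇑Q₁ from funext fun v => by
      rw [Function.comp_apply, sumQ_elim, QuadraticMap.map_zero, add_zero]] at h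

/-- A diagonal copy lies in the derived group. -/
theorem diag_mem_omega [Fintype F] {Q : QuadraticForm F (α → F)} (hQ : (QuadraticMap.polarBilin Q).Nondegenerate)
    (hex : (∃ c : F, c ≠ 0 ∧ c ≠ 1) ∨ Fintype.card (α ⊕ α) ≠ 4) (g : Cfsg.isometryGroup F ⇑Q) :
    diagHom (g, g) ∈ Cfsg.Omega F ⇑(sumQ Q Q) := by
  classical
  set O := Cfsg.isometryGroup F ⇑(sumQ Q Q)
  set π := QuotientGroup.mk' (Cfsg.Omega F ⇑(sumQ Q Q))
  have hab : ∀ x y : O, π x * π y = π y * π x := fun x y => by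
    rw [← commutatorElement_eq_one_iff_mul_comm, ← map_commutatorElement]
    exact (QuotientGroup.eq_one_iff _).2 (Subgroup.commutator_mem_commutator (Subgroup.mem_top _) (Subgroup.mem_top _))
  have hsq : ∀ x : O, π x * π x = 1 := by
    intro x
    have hx : x ∈ Subgroup.closure (Reflections.reflections (sumQ Q Q)) := by
      rw [DicksonGen.closure_eq_top (nondeg_sumQ hQ hQ) hex]; trivial
    induction hx using Subgroup.closure_induction with
    | mem r hr =>
      obtain ⟨v, hv, hr'⟩ := hr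
      rw [← map_mul, show r * r = 1 from Subtype.ext (Units.ext (Matrix.toLin'.injective (LinearMap.ext fun w => by
        simp only [Subgroup.coe_mul, Units.val_mul, hr', Matrix.toLin'_apply, ← Matrix.mulVec_mulVec,
          reflection_mulVec, OneMemClass.coe_one, Units.val_one, Matrix.one_mulVec]
        exact Spinor.refl_refl (sumQ Q Q) hv w))), map_one]
    | one => simp
    | mul a b _ _ ha hb =>
      rw [map_mul, show π a * π b * (π a * π b) = π a * (π b * π a) * π b by group, hab b a,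
        show π a * (π a * π b) * π b = (π a * π a) * (π b * π b) by group, ha, hb, one_mul]
    | inv a _ ha => rw [map_inv, ← mul_inv_rev, ha, inv_one]
  -- the swap
  have hW : ∀ v : α ⊕ α → F, sumQ Q Q (v ∘ Sum.swap) = sumQ Q Q v := fun v => by
    rw [sumQ_apply, sumQ_apply, add_comm]; rfl
  set P : Matrix (α ⊕ α) (α ⊕ α) F := Matrix.fromBlocks 0 1 1 0
  have hPP : P * P = 1 := by simp [P, Matrix.fromBlocks_multiply, Matrix.fromBlocks_one]
  let s : O := ⟨⟨P, P, hPP, hPP⟩, (mem_isometryGroup_iff _ _).2 fun v => by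
    show sumQ Q Q (P *ᵥ v) = sumQ Q Q v
    rw [← hW v]
    congr 1
    funext t
    rcases t with t | t <;> simp [P, Matrix.fromBlocks_mulVec]⟩
  have hconj : s * diagHom (g, 1) * s⁻¹ = diagHom (1, g) := by
    refine Subtype.ext (Units.ext ?_)
    show P * Matrix.fromBlocks g.1.1 0 0 (1 : Cfsg.isometryGroup F ⇑Q).1.1 * P = Matrix.fromBlocks (1 : Cfsg.isometryGroup F ⇑Q).1.1 0 0 g.1.1
    simp [P, Matrix.fromBlocks_multiply]
  rw [← QuotientGroup.eq_one_iff]
  show π (diagHom (g, g)) = 1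
  rw [show ((g, g) : Cfsg.isometryGroup F ⇑Q × Cfsg.isometryGroup F ⇑Q) = (g, 1) * (1, g) by simp, map_mul, map_mul,
    ← hconj, map_mul, map_mul, map_inv, hab s, mul_inv_cancel_right, hsq]

end CfsgLib.Geometry.OmegaSum
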