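import Mathlib
import Cfsg.Prelude.Def_SporadicB
import Cfsg.Agent.Lib.Geometry.RankParity
import Cfsg.Agent.Lib.Geometry.Spinor

/-!
The orthogonal transvections over two elements as a class of 3-transpositions.
-/

set_option autoImplicit false
open scoped Matrix

namespace CfsgLib.Geometry.TransvectionClass

open CfsgLib.Geometry CfsgLib.Geometry.QuadBasic

variable {ι : Type} [Fintype ι] [DecidableEq ι] {Q : QuadraticForm (ZMod 2) (ι → ZMod 2)}

theorem eq_one : ∀ x : ZMod 2, x ≠ 0 → x = 1 := by decide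

theorem threeTransposition (hQ : (QuadraticMap.polarBilin Q).Nondegenerate) [Nonempty ι] (hcard : Fintype.card ι ≠ 4) :
    Cfsg.IsThreeTranspositionClass {g : Cfsg.isometryGroup (ZMod 2) ⇑Q | (g.1.1 - 1).rank = 1} := by
  have hset : ∀ g : Cfsg.isometryGroup (ZMod 2) ⇑Q,
      (g.1.1 - 1).rank = 1 ↔ ∃ v, ∃ hv : Q v ≠ 0, g = Reflections.R Q v hv := RankParity.rank_one_iff hQ
  refine ⟨⟨fun d hd => ?_, fun d hd e he => ?_⟩, ?_, ?_⟩
  · obtain ⟨v, hv, rfl⟩ := (hset d).1 hd
    refine orderOf_eq_prime (by rw [pow_two]; exact RankParity.R_mul_self v hv) fun h1 => ?_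
    have hd' : ((Reflections.R Q v hv).1.1 - 1).rank = 1 := hd
    rw [h1, show ((1 : Cfsg.isometryGroup (ZMod 2) ⇑Q).1.1 - 1) = 0 from sub_self _, Matrix.rank_zero] at hd'
    exact zero_ne_one hd'
  · obtain ⟨v, hv, rfl⟩ := (hset d).1 hd
    obtain ⟨w, hw, rfl⟩ := (hset e).1 he
    set a := Reflections.R Q v hv with ha
    set b := Reflections.R Q w hw with hb
    have aa : a * a = 1 := RankParity.R_mul_self v hv
    have bb : b * b = 1 := RankParity.R_mul_self w hw
    have hav : a.1.1 *ᵥ w = w - QuadraticMap.polar (⇑Q) v w • v := by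
      rw [ha, Reflections.R_apply, eq_one _ hv, inv_one, one_mul]
    by_cases hp : QuadraticMap.polar (⇑Q) v w = 0
    · left
      rw [hp, zero_smul, sub_zero] at hav
      have hab : a * b * a⁻¹ = b := Spinor.R_conj a hw hw hav
      rw [pow_two, ← mul_assoc]
      calc a * b * a * b = (a * b * a⁻¹) * b := by rw [RankParity.R_inv]
        _ = 1 := by rw [hab, bb]
    · right
      rw [eq_one _ hp, one_smul] at hav
      have hbv : b.1.1 *ᵥ v = v - w := by
        rw [hb, Reflections.R_apply, eq_one _ hw, inv_one, one_mul, QuadraticMap.polar_comm, eq_one _ hp, one_smul]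
      have hu : Q (w - v) ≠ 0 := by
        have := (mem_isometryGroup_iff (⇑Q) a.1).1 a.2 w
        rw [hav] at this; rw [this]; exact hw
      have hvw : v - w = w - v := by
        ext i; simp only [Pi.sub_apply, CharTwo.sub_eq_add, add_comm]
      rw [hvw] at hbv
      have e1 : a * b * a⁻¹ = Reflections.R Q (w - v) hu := Spinor.R_conj a hw hu hav
      have e2 : b * a * b⁻¹ = Reflections.R Q (w - v) hu := Spinor.R_conj b hv hu hbv
      have e3 : a * b * a = b * a * b := by
        rw [RankParity.R_inv] at e1 e2; rw [e1, e2]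
      calc (a * b) ^ 3 = (a * b * a) * (b * a * b) := by simp only [pow_succ, pow_zero, one_mul, mul_assoc]
        _ = (b * a * b) * (b * a * b) := by rw [e3]
        _ = b * a * (b * b) * a * b := by group
        _ = 1 := by rw [bb, mul_one, mul_assoc b a a, aa, mul_one, bb]
  · obtain ⟨v, hv⟩ := OmegaIndex.exists_aniso hQ
    refine ⟨Reflections.R Q v hv, (hset _).2 ⟨v, hv, rfl⟩, Set.ext fun g => ⟨fun hg => ?_, fun hg => ?_⟩⟩
    · obtain ⟨w, hw, rfl⟩ := (hset g).1 hg
      obtain ⟨h, hh⟩ := DicksonGen.exists_map hQ (v := v) (w := w) hv (by rw [eq_one _ hv, eq_one _ hw])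
      exact isConj_iff.2 ⟨h, Spinor.R_conj h hv hw hh⟩
    · obtain ⟨h, rfl⟩ := isConj_iff.1 hg
      have hw : Q (h.1.1 *ᵥ v) ≠ 0 := by
        rw [(mem_isometryGroup_iff (⇑Q) h.1).1 h.2 v]; exact hv
      exact (hset _).2 ⟨_, hw, Spinor.R_conj h hv hw rfl⟩
  · rw [eq_top_iff, ← DicksonGen.closure_eq_top hQ (Or.inr hcard)]
    refine Subgroup.closure_mono ?_
    rintro r ⟨v, hv, hr⟩
    exact (hset r).2 ⟨v, hv, Subtype.ext (Units.ext hr)⟩

end CfsgLib.Geometry.TransvectionClass
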